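import Mathlib
import Cfsg.Agent.Lib.RegUnip.Cyclic
import Cfsg.Agent.Lib.RegUnip.Std

/-! Regular unipotent elements of the symplectic group over a field of odd order. -/

set_option autoImplicit false
set_option linter.unusedSimpArgs false
set_option linter.unusedVariables false
set_option linter.unusedSectionVars false
set_option linter.style.haveILetI false

namespace Cfsg.Agent.Lib.RegUnip

open Module Matrix
open scoped MatrixGroups

variable {F : Type*} [Field F] {m : ℕ}

local notation "ι" => (Fin m ⊕ Fin m)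
local notation "MM" => Matrix (Fin m ⊕ Fin m) (Fin m ⊕ Fin m) F
local notation "VV" => (Fin m ⊕ Fin m → F)
local notation "JJ" => Matrix.J (Fin m) F

/-- The adjoint for the symplectic form. -/
def spAdj (x : MM) : MM := -(JJ * xᵀ * JJ)

/-- The symplectic form. -/
def spF (v w : VV) : F := v ⬝ᵥ (JJ *ᵥ w)

theorem spAdj_add (x y : MM) : spAdj (x + y) = spAdj x + spAdj y := by
  simp only [spAdj, transpose_add, mul_add, add_mul, neg_add]

theorem spAdj_neg (x : MM) : spAdj (-x) = -spAdj x := by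
  simp only [spAdj, transpose_neg, mul_neg, neg_mul]

theorem spAdj_sub (x y : MM) : spAdj (x - y) = spAdj x - spAdj y := by
  rw [sub_eq_add_neg, spAdj_add, spAdj_neg, sub_eq_add_neg]

theorem spAdj_smul (c : F) (x : MM) : spAdj (c • x) = c • spAdj x := by
  simp only [spAdj, transpose_smul, mul_smul_comm, smul_mul_assoc, smul_neg]

theorem spAdj_one : spAdj (1 : MM) = 1 := by
  simp only [spAdj, transpose_one, mul_one, J_squared, neg_neg]

theorem spAdj_mul (x y : MM) : spAdj (x * y) = spAdj y * spAdj x := by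
  simp only [spAdj, transpose_mul]
  have h : (JJ * yᵀ * JJ) * (JJ * xᵀ * JJ) = JJ * yᵀ * (JJ * JJ) * xᵀ * JJ := by
    simp only [Matrix.mul_assoc]
  rw [neg_mul_neg, h, J_squared]
  simp only [Matrix.mul_assoc, mul_neg, neg_mul, mul_one]

theorem spAdj_adj (x : MM) : spAdj (spAdj x) = x := by
  have h : spAdj (spAdj x) = (JJ * JJ) * x * (JJ * JJ) := by
    simp only [spAdj, transpose_neg, transpose_mul, J_transpose, transpose_transpose]
    noncomm_ring
  rw [h, J_squared]
  simp

theorem J_mul_spAdj (x : MM) : JJ * spAdj x = xᵀ * JJ := by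
  have h : JJ * spAdj x = -((JJ * JJ) * (xᵀ * JJ)) := by
    simp only [spAdj]
    noncomm_ring
  rw [h, J_squared]
  simp

theorem spF_adj (x : MM) (v w : VV) : spF (x *ᵥ v) w = spF v (spAdj x *ᵥ w) := by
  simp only [spF, mulVec_mulVec, J_mul_spAdj]
  rw [← mulVec_mulVec, dotProduct_mulVec v xᵀ, vecMul_transpose]

theorem spF_symm (v w : VV) : spF v w = -spF w v := by
  simp only [spF]
  rw [dotProduct_mulVec, dotProduct_comm, ← mulVec_transpose, J_transpose, neg_mulVec, dotProduct_neg]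

theorem spF_self (hF2 : (2 : F) ≠ 0) (v : VV) : spF v v = 0 := by
  have h := spF_symm v v
  have h2 : (2 : F) * spF v v = 0 := by linear_combination h
  exact (mul_eq_zero.1 h2).resolve_left hF2

theorem spF_add_left (v v' w : VV) : spF (v + v') w = spF v w + spF v' w := by
  simp only [spF, add_dotProduct]

theorem spF_add_right (v w w' : VV) : spF v (w + w') = spF v w + spF v w' := by
  simp only [spF, mulVec_add, dotProduct_add]

theorem spF_smul_left (c : F) (v w : VV) : spF (c • v) w = c * spF v w := by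
  simp only [spF, smul_dotProduct, smul_eq_mul]

theorem spF_smul_right (c : F) (v w : VV) : spF v (c • w) = c * spF v w := by
  simp only [spF, mulVec_smul, dotProduct_smul, smul_eq_mul]

theorem spF_nondeg {v : VV} (h : ∀ w, spF v w = 0) : v = 0 := by
  have h1 : ∀ w, v ⬝ᵥ w = 0 := by
    intro w
    have h2 := h (-(JJ *ᵥ w))
    simp only [spF, mulVec_neg, mulVec_mulVec, J_squared, neg_mulVec, one_mulVec, neg_neg] at h2
    exact h2
  funext i
  have := h1 (Pi.single i 1)
  simpa using this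

/-- Totally isotropic subspaces have dimension at most `m`. -/
theorem ti_finrank_le (hm : True) (W : Submodule F VV) (hW : ∀ v ∈ W, ∀ w ∈ W, spF v w = 0) :
    finrank F W ≤ m := by
  let B : LinearMap.BilinForm F VV := LinearMap.mk₂ F spF spF_add_left spF_smul_left spF_add_right spF_smul_right
  have hB : B.Nondegenerate := by
    constructor
    · intro v hv
      exact spF_nondeg hv
    · intro v hv
      apply spF_nondeg
      intro w
      rw [spF_symm, neg_eq_zero]
      exact hv w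
  have h1 := LinearMap.BilinForm.finrank_orthogonal hB W
  have h2 : W ≤ B.orthogonal W := by
    intro v hv w hw
    exact hW w hw v hv
  have h3 := Submodule.finrank_mono h2
  have h4 : finrank F VV = m + m := by simp
  omega

/-! ### The regular data -/

/-- A regular unipotent element with a cyclic vector. -/
structure RU (u : MM) (e : VV) : Prop where
  m1 : 1 ≤ m
  sp : spAdj u * u = 1
  nil : (u - 1) ^ (2 * m) = 0
  ne : ((u - 1) ^ (2 * m - 1)) *ᵥ e ≠ 0
  rk : (u - 1).rank = 2 * m - 1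

/-- The hyperplane `im N`. -/
def spH (u : MM) : Submodule F VV := LinearMap.range (Matrix.mulVecLin (u - 1))

theorem mem_spH {u : MM} {v : VV} : v ∈ spH u ↔ ∃ w, (u - 1) *ᵥ w = v := by
  rw [spH, LinearMap.mem_range]
  rfl

local notation "Φ" => (Matrix.toLinAlgEquiv' (R := F) (n := Fin m ⊕ Fin m))

theorem RU.finrankV {u : MM} {e : VV} (R : RU u e) : finrank F VV = 2 * m := by
  simp
  omega

theorem RU.T_nil {u : MM} {e : VV} (R : RU u e) : (Φ (u - 1)) ^ (2 * m) = 0 := by
  rw [← map_pow, R.nil, map_zero]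

theorem RU.T_ne {u : MM} {e : VV} (R : RU u e) : ((Φ (u - 1)) ^ (2 * m - 1)) e ≠ 0 := by
  rw [← map_pow, Matrix.toLinAlgEquiv'_apply]
  exact R.ne

theorem RU.comm_ext {u : MM} {e : VV} (R : RU u e) {x y : MM} (hx : Commute x (u - 1)) (hy : Commute y (u - 1)) (h : x *ᵥ e = y *ᵥ e) : x = y := by
  apply (Φ).injective
  apply commute_ext (Φ (u - 1)) (2 * m) R.finrankV R.T_nil e R.T_ne _ _ (hx.map Φ) (hy.map Φ)
  simpa [Matrix.toLinAlgEquiv'_apply] using h

theorem RU.exists_comm {u : MM} {e : VV} (R : RU u e) (v : VV) : ∃ x : MM, Commute x (u - 1) ∧ x *ᵥ e = v := by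
  refine ⟨(Φ).symm (Polynomial.aeval (Φ (u - 1)) (polyOf (Φ (u - 1)) (2 * m) R.finrankV R.T_nil e R.T_ne v)), ?_, ?_⟩
  · have h := (commute_aeval (Φ (u - 1)) (polyOf (Φ (u - 1)) (2 * m) R.finrankV R.T_nil e R.T_ne v)).map ((Φ).symm)
    simpa using h
  · rw [← Matrix.toLinAlgEquiv'_apply, AlgEquiv.apply_symm_apply]
    exact aeval_polyOf_apply _ _ _ _ _ _ _

theorem RU.comm_comm {u : MM} {e : VV} (R : RU u e) {x y : MM} (hx : Commute x (u - 1)) (hy : Commute y (u - 1)) : Commute x y := by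
  have h1 := exists_poly_of_commute (Φ (u - 1)) (2 * m) R.finrankV R.T_nil e R.T_ne (Φ x) (hx.map Φ)
  have h2 := exists_poly_of_commute (Φ (u - 1)) (2 * m) R.finrankV R.T_nil e R.T_ne (Φ y) (hy.map Φ)
  have h3 : Commute (Φ x) (Φ y) := by
    rw [h1, h2]
    exact (Commute.all _ _).map (Polynomial.aeval (Φ (u - 1)))
  have h4 := h3.map ((Φ).symm)
  simpa using h4

theorem RU.sp' {u : MM} {e : VV} (R : RU u e) : u * spAdj u = 1 := mul_eq_one_comm.1 R.sp

theorem RU.adj_comm {u : MM} {e : VV} (R : RU u e) {x : MM} (hx : Commute x (u - 1)) : Commute (spAdj x) (u - 1) := by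
  have h1 : Commute x u := by
    have := hx.add_right (Commute.one_right x)
    simpa using this
  have h2 : spAdj u * spAdj x = spAdj x * spAdj u := by
    rw [← spAdj_mul, ← spAdj_mul, h1.eq]
  have h3 : Commute (spAdj x) u := by
    show spAdj x * u = u * spAdj x
    calc spAdj x * u = (u * spAdj u) * (spAdj x * u) := by rw [R.sp', one_mul]
      _ = u * (spAdj u * spAdj x) * u := by simp only [Matrix.mul_assoc]
      _ = u * (spAdj x * spAdj u) * u := by rw [h2]
      _ = u * spAdj x * (spAdj u * u) := by simp only [Matrix.mul_assoc]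
      _ = u * spAdj x := by rw [R.sp, mul_one]
  exact h3.sub_right (Commute.one_right _)

theorem RU.e_not_mem {u : MM} {e : VV} (R : RU u e) : e ∉ spH u := by
  intro h
  obtain ⟨w, hw⟩ := mem_spH.1 h
  apply R.ne
  rw [← hw, mulVec_mulVec, ← pow_succ]
  have : 2 * m - 1 + 1 = 2 * m := by
    have := R.m1
    omega
  rw [this, R.nil, zero_mulVec]

theorem RU.finrank_H {u : MM} {e : VV} (R : RU u e) : finrank F (spH u) = 2 * m - 1 := R.rk

theorem RU.sup_top {u : MM} {e : VV} (R : RU u e) : spH u ⊔ Submodule.span F {e} = ⊤ := by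
  apply Submodule.eq_top_of_finrank_eq
  have h1 : spH u < spH u ⊔ Submodule.span F {e} := by
    refine lt_of_le_of_ne le_sup_left ?_
    intro h
    apply R.e_not_mem
    rw [h]
    exact Submodule.mem_sup_right (Submodule.mem_span_singleton_self e)
  have h2 := Submodule.finrank_lt_finrank_of_lt h1
  have h3 := Submodule.finrank_le (spH u ⊔ Submodule.span F {e})
  rw [R.finrank_H] at h2
  rw [R.finrankV] at h3 ⊢
  have := R.m1
  omega

theorem RU.decomp {u : MM} {e : VV} (R : RU u e) (v : VV) : ∃ c : F, ∃ w, v = c • e + (u - 1) *ᵥ w := by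
  have h : v ∈ spH u ⊔ Submodule.span F {e} := by
    rw [R.sup_top]
    trivial
  obtain ⟨a, ha, b, hb, hab⟩ := Submodule.mem_sup.1 h
  obtain ⟨c, rfl⟩ := Submodule.mem_span_singleton.1 hb
  obtain ⟨w, rfl⟩ := mem_spH.1 ha
  exact ⟨c, w, by rw [← hab, add_comm]⟩

/-- The factor form of the elements. -/
theorem RU.exists_factor {u : MM} {e : VV} (R : RU u e) {x : MM} (hx : Commute x (u - 1)) (h : (x - 1) *ᵥ e ∈ spH u) :
    ∃ r : MM, Commute r (u - 1) ∧ x - 1 = (u - 1) * r := by
  obtain ⟨w, hw⟩ := mem_spH.1 h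
  obtain ⟨r, hr, hre⟩ := R.exists_comm w
  refine ⟨r, hr, ?_⟩
  apply R.comm_ext (hx.sub_left (Commute.one_left _)) ((Commute.refl _).mul_left hr)
  rw [← hw, ← hre, mulVec_mulVec]

theorem RU.isUnit_of {u : MM} {e : VV} (R : RU u e) {x : MM} (hx : Commute x (u - 1)) (h : (x - 1) *ᵥ e ∈ spH u) : IsUnit x := by
  obtain ⟨r, hr, hxr⟩ := R.exists_factor hx h
  have h1 : IsNilpotent (x - 1) := by
    refine ⟨2 * m, ?_⟩
    rw [hxr, hr.symm.mul_pow, R.nil, zero_mul]
  have h2 := h1.isUnit_one_add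
  simpa using h2

theorem RU.adj_sub_mem {u : MM} {e : VV} (R : RU u e) {x : MM} (hx : Commute x (u - 1)) (h : (x - 1) *ᵥ e ∈ spH u) : (spAdj x - 1) *ᵥ e ∈ spH u := by
  obtain ⟨r, hr, hxr⟩ := R.exists_factor hx h
  have h1 : spAdj x - 1 = spAdj (x - 1) := by
    rw [spAdj_sub, spAdj_one]
  have h2 : spAdj (u - 1) = -((u - 1) * spAdj u) := by
    rw [spAdj_sub, spAdj_one, sub_mul, R.sp', one_mul, neg_sub]
  have h3 : spAdj x - 1 = (u - 1) * (-(spAdj r * spAdj u)) := by
    rw [h1, hxr, spAdj_mul, h2]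
    have h4 := (R.adj_comm hr).eq
    rw [mul_neg, mul_neg, ← Matrix.mul_assoc, ← Matrix.mul_assoc, h4]
  rw [h3, ← mulVec_mulVec]
  exact mem_spH.2 ⟨_, rfl⟩

/-! ### The socle vector -/

/-- The socle vector `N^(2m-1) e`. -/
def spZ (u : MM) (e : VV) : VV := ((u - 1) ^ (2 * m - 1)) *ᵥ e

theorem spF_neg_right (v w : VV) : spF v (-w) = -spF v w := by
  simp only [spF, mulVec_neg, dotProduct_neg]

theorem spF_zero_right (v : VV) : spF v 0 = 0 := by
  simp only [spF, mulVec_zero, dotProduct_zero]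

theorem RU.N_z {u : MM} {e : VV} (R : RU u e) : (u - 1) *ᵥ spZ u e = 0 := by
  rw [spZ, mulVec_mulVec, ← pow_succ']
  have : 2 * m - 1 + 1 = 2 * m := by
    have := R.m1
    omega
  rw [this, R.nil, zero_mulVec]

theorem RU.u_z {u : MM} {e : VV} (R : RU u e) : u *ᵥ spZ u e = spZ u e := by
  have := R.N_z
  rwa [sub_mulVec, one_mulVec, sub_eq_zero] at this

theorem RU.adj_z {u : MM} {e : VV} (R : RU u e) : spAdj u *ᵥ spZ u e = spZ u e := by
  conv_lhs => rw [← R.u_z]
  rw [mulVec_mulVec, R.sp, one_mulVec]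

theorem RU.spF_H_z {u : MM} {e : VV} (R : RU u e) {h : VV} (hh : h ∈ spH u) : spF h (spZ u e) = 0 := by
  obtain ⟨w, rfl⟩ := mem_spH.1 hh
  rw [spF_adj, spAdj_sub, spAdj_one, sub_mulVec, one_mulVec, R.adj_z, sub_self, spF_zero_right]

theorem RU.sigma_ne {u : MM} {e : VV} (R : RU u e) : spF e (spZ u e) ≠ 0 := by
  intro h
  have hz : spZ u e = 0 := by
    apply spF_nondeg
    intro v
    obtain ⟨c, w, rfl⟩ := R.decomp v
    rw [spF_symm, spF_add_left, spF_smul_left, h, R.spF_H_z (mem_spH.2 ⟨w, rfl⟩)]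
    simp
  exact R.ne hz

theorem RU.comm_z {u : MM} {e : VV} (R : RU u e) {x : MM} (hx : Commute x (u - 1)) {c : F} {w : VV}
    (h : x *ᵥ e = c • e + (u - 1) *ᵥ w) : x *ᵥ spZ u e = c • spZ u e := by
  have h1 : x * (u - 1) ^ (2 * m - 1) = (u - 1) ^ (2 * m - 1) * x := (hx.pow_right _).eq
  have h2 : 2 * m - 1 + 1 = 2 * m := by
    have := R.m1
    omega
  rw [spZ, mulVec_mulVec, h1, ← mulVec_mulVec, h, mulVec_add, mulVec_smul, mulVec_mulVec, ← pow_succ, h2, R.nil,
    zero_mulVec, add_zero]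

theorem RU.spF_x_z {u : MM} {e : VV} (R : RU u e) {x : MM} {c : F} {w : VV}
    (h : x *ᵥ e = c • e + (u - 1) *ᵥ w) : spF (x *ᵥ e) (spZ u e) = c * spF e (spZ u e) := by
  rw [h, spF_add_left, spF_smul_left, R.spF_H_z (mem_spH.2 ⟨w, rfl⟩), add_zero]

theorem RU.adj_neg_mem {u : MM} {e : VV} (R : RU u e) (h2 : (2 : F) ≠ 0) {x : MM} (hx : Commute x (u - 1))
    (ha : spAdj x = -x) : x *ᵥ e ∈ spH u := by
  obtain ⟨c, w, hw⟩ := R.decomp (x *ᵥ e)
  have h1 := R.spF_x_z hw
  rw [spF_adj, ha, neg_mulVec, R.comm_z hx hw, spF_neg_right, spF_smul_right] at h1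
  have h3 : (2 * c) * spF e (spZ u e) = 0 := by linear_combination -h1
  have hc : c = 0 := by
    rcases mul_eq_zero.1 h3 with h4 | h4
    · exact (mul_eq_zero.1 h4).resolve_left h2
    · exact absurd h4 R.sigma_ne
  rw [hw, hc, zero_smul, zero_add]
  exact mem_spH.2 ⟨w, rfl⟩

theorem RU.coeff_sq {u : MM} {e : VV} (R : RU u e) {g : MM} (hg : Commute g (u - 1)) (h : spAdj g * g = 1) {c : F}
    {w : VV} (hw : g *ᵥ e = c • e + (u - 1) *ᵥ w) : c * c = 1 := by
  have h1 : spF (g *ᵥ e) (g *ᵥ spZ u e) = spF e (spZ u e) := by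
    rw [spF_adj, mulVec_mulVec, h, one_mulVec]
  rw [R.comm_z hg hw, spF_smul_right, R.spF_x_z hw] at h1
  have h3 : (c * c - 1) * spF e (spZ u e) = 0 := by linear_combination h1
  rcases mul_eq_zero.1 h3 with h4 | h4
  · exact sub_eq_zero.1 h4
  · exact absurd h4 R.sigma_ne

/-! ### The subspaces of fixed and anti-fixed elements -/

/-- The vectors `x e` for `x` commuting with `N` and an eigenvector of the adjoint. -/
def spW (u : MM) (e : VV) (ε : F) : Submodule F VV where
  carrier := {v | ∃ x : MM, Commute x (u - 1) ∧ spAdj x = ε • x ∧ x *ᵥ e = v}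
  add_mem' := by
    rintro _ _ ⟨x, h1, h2, rfl⟩ ⟨y, h3, h4, rfl⟩
    exact ⟨x + y, h1.add_left h3, by rw [spAdj_add, h2, h4, smul_add], by rw [add_mulVec]⟩
  zero_mem' := ⟨0, Commute.zero_left _, by simp [spAdj], by simp⟩
  smul_mem' := by
    rintro c _ ⟨x, h1, h2, rfl⟩
    exact ⟨c • x, h1.smul_left c, by rw [spAdj_smul, h2, smul_comm], by rw [smul_mulVec]⟩

theorem RU.spW_iso {u : MM} {e : VV} (R : RU u e) (h2 : (2 : F) ≠ 0) {ε : F} (hε : ε * ε = 1) :
    ∀ v ∈ spW u e ε, ∀ w ∈ spW u e ε, spF v w = 0 := by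
  rintro _ ⟨x, h1, h3, rfl⟩ _ ⟨y, h4, h5, rfl⟩
  rw [spF_adj, h3, smul_mulVec, mulVec_mulVec, spF_smul_right] 
  have hp : spAdj (x * y) = x * y := by
    rw [spAdj_mul, h5, h3, smul_mul_smul_comm, hε, one_smul]
    exact (R.comm_comm h4 h1).eq
  have h6 := spF_symm e ((x * y) *ᵥ e)
  have h7 := spF_adj (x * y) e e
  rw [hp] at h7
  rw [h7] at h6
  have h8 : (2 : F) * spF e ((x * y) *ᵥ e) = 0 := by linear_combination h6
  rw [(mul_eq_zero.1 h8).resolve_left h2, mul_zero]

theorem RU.spW_sup {u : MM} {e : VV} (R : RU u e) (h2 : (2 : F) ≠ 0) : spW u e 1 ⊔ spW u e (-1) = ⊤ := by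
  rw [eq_top_iff]
  intro v _
  obtain ⟨x, hx, rfl⟩ := R.exists_comm v
  have hax := R.adj_comm hx
  have h3 : x = (2 : F)⁻¹ • (x + spAdj x) + (2 : F)⁻¹ • (x - spAdj x) := by
    rw [← smul_add]
    have : x + spAdj x + (x - spAdj x) = (2 : F) • x := by
      rw [two_smul]
      abel
    rw [this, smul_smul, inv_mul_cancel₀ h2, one_smul]
  have h4 : x *ᵥ e = ((2 : F)⁻¹ • (x + spAdj x)) *ᵥ e + ((2 : F)⁻¹ • (x - spAdj x)) *ᵥ e := by
    rw [← add_mulVec, ← h3]
  rw [h4]
  apply Submodule.add_mem_sup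
  · refine ⟨_, (hx.add_left hax).smul_left _, ?_, rfl⟩
    rw [spAdj_smul, spAdj_add, spAdj_adj, add_comm, one_smul]
  · refine ⟨_, (hx.sub_left hax).smul_left _, ?_, rfl⟩
    rw [spAdj_smul, spAdj_sub, spAdj_adj, smul_comm, neg_one_smul, neg_sub]

theorem RU.finrank_spW {u : MM} {e : VV} (R : RU u e) (h2 : (2 : F) ≠ 0) {ε : F} (hε : ε = 1 ∨ ε = -1) :
    finrank F (spW u e ε) = m := by
  have h1 := ti_finrank_le trivial (spW u e 1) (R.spW_iso h2 (by simp))
  have h3 := ti_finrank_le trivial (spW u e (-1)) (R.spW_iso h2 (by simp))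
  have h4 := Submodule.finrank_add_le_finrank_add_finrank (spW u e 1) (spW u e (-1))
  rw [R.spW_sup h2, finrank_top, R.finrankV] at h4
  rcases hε with rfl | rfl <;> omega

/-- The anti-fixed elements of the commutant have `q ^ m` elements. -/
theorem RU.card_T {u : MM} {e : VV} (R : RU u e) (h2 : (2 : F) ≠ 0) [Fintype F] :
    Nat.card {s : MM // Commute s (u - 1) ∧ spAdj s = -s} = Fintype.card F ^ m := by
  classical
  let f : {s : MM // Commute s (u - 1) ∧ spAdj s = -s} → spW u e (-1) :=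
    fun s => ⟨s.1 *ᵥ e, s.1, s.2.1, by rw [neg_one_smul]; exact s.2.2, rfl⟩
  have hf : Function.Bijective f := by
    constructor
    · intro s t h
      apply Subtype.ext
      exact R.comm_ext s.2.1 t.2.1 (congrArg Subtype.val h)
    · rintro ⟨_, x, h3, h4, rfl⟩
      refine ⟨⟨x, h3, by rw [h4, neg_one_smul]⟩, rfl⟩
  rw [Nat.card_congr (Equiv.ofBijective f hf), Nat.card_eq_fintype_card,
    Module.card_eq_pow_finrank (K := F) (V := spW u e (-1)), R.finrank_spW h2 (Or.inr rfl)]

/-! ### The Cayley transform -/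

/-- The Cayley transform. -/
noncomputable def cay (x : MM) : MM := (2 : F) • (1 + x)⁻¹ - 1

theorem one_add_cay (x : MM) : 1 + cay x = (2 : F) • (1 + x)⁻¹ := by
  simp [cay]

theorem comm_inv {p y : MM} (hp : IsUnit p) (h : Commute p y) : Commute p⁻¹ y := by
  have hd := (Matrix.isUnit_iff_isUnit_det _).1 hp
  show p⁻¹ * y = y * p⁻¹
  calc p⁻¹ * y = p⁻¹ * y * (p * p⁻¹) := by rw [Matrix.mul_nonsing_inv _ hd, mul_one]
    _ = p⁻¹ * (p * y) * p⁻¹ := by
      rw [h.eq]
      simp only [Matrix.mul_assoc]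
    _ = y * p⁻¹ := by rw [← Matrix.mul_assoc, Matrix.nonsing_inv_mul _ hd, one_mul]

theorem cay_cay (h2 : (2 : F) ≠ 0) {x : MM} (hx : IsUnit (1 + x)) : cay (cay x) = x := by
  have hr : (1 + x)⁻¹ * (1 + x) = 1 := Matrix.nonsing_inv_mul _ ((Matrix.isUnit_iff_isUnit_det _).1 hx)
  have h : (1 + cay x)⁻¹ = (2 : F)⁻¹ • (1 + x) := by
    apply Matrix.inv_eq_right_inv
    rw [one_add_cay, smul_mul_smul_comm, mul_inv_cancel₀ h2, one_smul, hr]
  rw [cay, h, smul_smul, mul_inv_cancel₀ h2, one_smul, add_sub_cancel_left]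

theorem cay_comm {x y : MM} (hx : IsUnit (1 + x)) (h : Commute x y) : Commute (cay x) y := by
  have h1 : Commute (1 + x) y := (Commute.one_left y).add_left h
  have h2 : Commute (1 + x)⁻¹ y := comm_inv hx h1
  exact (h2.smul_left 2).sub_left (Commute.one_left y)

theorem adj_cay_mul {x : MM} (hx : IsUnit (1 + x)) (h : spAdj x = -x) : spAdj (cay x) * cay x = 1 := by
  have hd := (Matrix.isUnit_iff_isUnit_det _).1 hx
  have h1 : (1 + x)⁻¹ * (1 + x) = 1 := Matrix.nonsing_inv_mul _ hd
  have h1' : (1 + x) * (1 + x)⁻¹ = 1 := Matrix.mul_nonsing_inv _ hd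
  set r := (1 + x)⁻¹ with hr
  have hrx : Commute r x := by
    apply comm_inv hx
    exact (Commute.one_left x).add_left (Commute.refl x)
  have ht : spAdj r * (1 - x) = 1 := by
    have h3 := congrArg spAdj h1'
    rw [spAdj_mul, spAdj_add, spAdj_one, h] at h3
    rw [sub_eq_add_neg]
    exact h3
  set t := spAdj r with htdef
  have e1 : t = t * r + t * r * x := by
    calc t = t * (r * (1 + x)) := by rw [h1, mul_one]
      _ = t * r + t * r * x := by noncomm_ring
  have e2 : r = t * r - t * r * x := by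
    calc r = (t * (1 - x)) * r := by rw [ht, one_mul]
      _ = t * ((1 - x) * r) := Matrix.mul_assoc _ _ _
      _ = t * (r * (1 - x)) := by
        rw [sub_mul, mul_sub r, hrx.eq, one_mul, mul_one]
      _ = t * r - t * r * x := by noncomm_ring
  have key : t + r = (2 : F) • (t * r) := by
    have h3 : t + r = (t * r + t * r * x) + (t * r - t * r * x) := congrArg₂ (· + ·) e1 e2
    rw [h3, two_smul]
    abel
  have h4 : spAdj (cay x) = (2 : F) • t - 1 := by
    rw [cay, spAdj_sub, spAdj_smul, spAdj_one]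
  rw [h4, cay]
  have h5 : ((2 : F) • t - 1) * ((2 : F) • r - 1) = (2 : F) • ((2 : F) • (t * r)) - (2 : F) • t - (2 : F) • r + 1 := by
    rw [sub_mul, mul_sub, mul_sub, one_mul, mul_one, one_mul, smul_mul_smul_comm, mul_smul]
    generalize (2 : F) • (2 : F) • (t * r) = A
    generalize (2 : F) • t = B
    generalize (2 : F) • r = C
    abel
  rw [h5, ← key, smul_add]
  generalize (2 : F) • t = B
  generalize (2 : F) • r = C
  abel

theorem adj_cay_of {g : MM} (hg : IsUnit (1 + g)) (h : spAdj g * g = 1) : spAdj (cay g) = -cay g := by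
  have hd := (Matrix.isUnit_iff_isUnit_det _).1 hg
  have h1' : (1 + g) * (1 + g)⁻¹ = 1 := Matrix.mul_nonsing_inv _ hd
  set r := (1 + g)⁻¹ with hr
  have ht : spAdj r * (1 + spAdj g) = 1 := by
    have h3 := congrArg spAdj h1'
    rw [spAdj_mul, spAdj_add, spAdj_one] at h3
    exact h3
  have h6 : 1 + g = (1 + spAdj g) * g := by
    rw [add_mul, h, one_mul, add_comm]
  have h7 : spAdj r = g * r := by
    calc spAdj r = spAdj r * ((1 + g) * r) := by rw [h1', mul_one]
      _ = spAdj r * ((1 + spAdj g) * g * r) := by rw [← h6]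
      _ = (spAdj r * (1 + spAdj g)) * (g * r) := by simp only [Matrix.mul_assoc]
      _ = g * r := by rw [ht, one_mul]
  have h8 : g * r = 1 - r := by
    have h9 : r + g * r = 1 := by
      rw [← h1', add_mul, one_mul]
    rw [← h9]
    abel
  rw [cay, spAdj_sub, spAdj_smul, spAdj_one, h7, h8, smul_sub, two_smul (R := F) (1 : MM)]
  abel

/-! ### Counting the centraliser -/

theorem isUnit_smul' {c : F} (hc : c ≠ 0) {x : MM} (h : IsUnit x) : IsUnit (c • x) := by
  rw [Matrix.isUnit_iff_isUnit_det] at *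
  rw [det_smul]
  exact (IsUnit.mk0 _ (pow_ne_zero _ hc)).mul h

theorem RU.cay_sub_mem {u : MM} {e : VV} (R : RU u e) {s : MM} (hs : Commute s (u - 1)) (hu : IsUnit (1 + s))
    (hse : s *ᵥ e ∈ spH u) : (cay s - 1) *ᵥ e ∈ spH u := by
  have hd := (Matrix.isUnit_iff_isUnit_det _).1 hu
  have h1 : (1 + s)⁻¹ * (1 + s) = 1 := Matrix.nonsing_inv_mul _ hd
  have hr : Commute (1 + s)⁻¹ (u - 1) := comm_inv hu ((Commute.one_left _).add_left hs)
  set r := (1 + s)⁻¹
  have h3 : cay s - 1 = (-(2 : F)) • (r * s) := by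
    have h4 : r + r * s = 1 := by
      rw [← h1, mul_add, mul_one]
    have h5 : cay s - 1 = (2 : F) • (r - 1) := by
      rw [cay, smul_sub, two_smul (R := F) (1 : MM)]
      abel
    have h6 : r - 1 = -(r * s) := by
      rw [← h4]
      abel
    rw [h5, h6, smul_neg, neg_smul]
  obtain ⟨w, hw⟩ := mem_spH.1 hse
  have h7 : (cay s - 1) *ᵥ e = (u - 1) *ᵥ ((-(2 : F)) • (r *ᵥ w)) := by
    rw [h3, smul_mulVec, ← mulVec_mulVec, ← hw, mulVec_smul, mulVec_mulVec, mulVec_mulVec, hr.eq]
  rw [h7]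
  exact mem_spH.2 ⟨_, rfl⟩

theorem RU.card_C {u : MM} {e : VV} (R : RU u e) (h2 : (2 : F) ≠ 0) [Fintype F] :
    Nat.card {g : MM // Commute g (u - 1) ∧ spAdj g * g = 1} = 2 * Fintype.card F ^ m := by
  classical
  have hT : ∀ s : MM, Commute s (u - 1) → spAdj s = -s → IsUnit (1 + s) ∧ (cay s - 1) *ᵥ e ∈ spH u := by
    intro s hs has
    have h3 := R.adj_neg_mem h2 hs has
    have hu : IsUnit (1 + s) := by
      apply R.isUnit_of ((Commute.one_left _).add_left hs)
      rwa [add_sub_cancel_left]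
    exact ⟨hu, R.cay_sub_mem hs hu h3⟩
  let sg : Bool → F := fun b => if b then 1 else -1
  have hsg : ∀ b, sg b * sg b = 1 := by
    intro b
    cases b <;> simp [sg]
  have hsg0 : ∀ b, sg b ≠ 0 := by
    intro b
    cases b <;> simp [sg]
  let f : Bool × {s : MM // Commute s (u - 1) ∧ spAdj s = -s} → {g : MM // Commute g (u - 1) ∧ spAdj g * g = 1} :=
    fun p => ⟨sg p.1 • cay p.2.1, (cay_comm (hT _ p.2.2.1 p.2.2.2).1 p.2.2.1).smul_left _, by
      rw [spAdj_smul, smul_mul_smul_comm, hsg, one_smul]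
      exact adj_cay_mul (hT _ p.2.2.1 p.2.2.2).1 p.2.2.2⟩
  have hf : Function.Bijective f := by
    constructor
    · rintro ⟨b, s, hs1, hs2⟩ ⟨b', s', hs1', hs2'⟩ h
      have h3 : sg b • cay s = sg b' • cay s' := congrArg Subtype.val h
      obtain ⟨hu, hm⟩ := hT s hs1 hs2
      obtain ⟨hu', hm'⟩ := hT s' hs1' hs2'
      by_cases hb : b = b'
      · subst hb
        have h4 : cay s = cay s' := smul_right_injective _ (hsg0 b) h3
        have h5 : s = s' := by
          rw [← cay_cay h2 hu, ← cay_cay h2 hu', h4]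
        subst h5
        rfl
      · exfalso
        have h4 : cay s + cay s' = 0 := by
          cases b <;> cases b' <;> simp_all [sg]
          · rw [← h3]
            abel
        apply R.e_not_mem
        have h5 : (-(2 : F)) • e = (cay s - 1) *ᵥ e + (cay s' - 1) *ᵥ e := by
          rw [← add_mulVec]
          have : cay s - 1 + (cay s' - 1) = (cay s + cay s') - (2 : F) • 1 := by
            rw [two_smul]
            abel
          rw [this, h4, zero_sub, neg_mulVec, smul_mulVec, one_mulVec, neg_smul]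
        have h6 : (-(2 : F)) • e ∈ spH u := by
          rw [h5]
          exact Submodule.add_mem _ hm hm'
        have h7 := Submodule.smul_mem _ (-(2 : F))⁻¹ h6
        rwa [smul_smul, inv_mul_cancel₀ (neg_ne_zero.2 h2), one_smul] at h7
    · rintro ⟨g, hg1, hg2⟩
      obtain ⟨c, w, hw⟩ := R.decomp (g *ᵥ e)
      have hc := R.coeff_sq hg1 hg2 hw
      have hg'1 : Commute (c • g) (u - 1) := hg1.smul_left c
      have hg'2 : spAdj (c • g) * (c • g) = 1 := by
        rw [spAdj_smul, smul_mul_smul_comm, hc, one_smul, hg2]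
      have hsub : (c • g - 1) *ᵥ e ∈ spH u := by
        apply mem_spH.2
        refine ⟨c • w, ?_⟩
        have h3 : (c • g - 1) *ᵥ e = c • ((u - 1) *ᵥ w) := by
          rw [sub_mulVec, one_mulVec, smul_mulVec, hw, smul_add, smul_smul, hc, one_smul]
          abel
        rw [h3, mulVec_smul]
      have hunit : IsUnit (1 + c • g) := by
        have h3 : IsUnit ((2 : F)⁻¹ • (1 + c • g)) := by
          apply R.isUnit_of (((Commute.one_left _).add_left hg'1).smul_left _)
          have h4 : (2 : F)⁻¹ • (1 + c • g) - 1 = (2 : F)⁻¹ • (c • g - 1) := by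
            have h5 : (1 : MM) = (2 : F)⁻¹ • ((2 : F) • 1) := by
              rw [smul_smul, inv_mul_cancel₀ h2, one_smul]
            conv_lhs =>
              rw [show (1 + c • g) = (2 : F) • 1 + (c • g - 1) by rw [two_smul]; abel]
            rw [smul_add, ← h5]
            abel
          rw [h4, smul_mulVec]
          exact Submodule.smul_mem _ _ hsub
        have h4 := isUnit_smul' h2 h3
        rwa [smul_smul, mul_inv_cancel₀ h2, one_smul] at h4
      have hcase : c = 1 ∨ c = -1 := mul_self_eq_one_iff.1 hc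
      let b : Bool := decide (c = 1)
      have hb : sg b = c := by
        rcases hcase with rfl | rfl
        · simp [sg, b]
        · have : (-1 : F) ≠ 1 := by
            intro h
            apply h2
            linear_combination -h
          simp [sg, b, this]
      refine ⟨(b, ⟨cay (c • g), cay_comm hunit hg'1, adj_cay_of hunit hg'2⟩), ?_⟩
      apply Subtype.ext
      show sg b • cay (cay (c • g)) = g
      rw [cay_cay h2 hunit, hb, smul_smul, hc, one_smul]
  rw [← Nat.card_congr (Equiv.ofBijective f hf), Nat.card_prod, R.card_T h2]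
  simp

theorem mem_sp_iff {A : MM} : A ∈ symplecticGroup (Fin m) F ↔ spAdj A * A = 1 := by
  constructor
  · intro h
    have := SymplecticGroup.inv_left_mul_aux h
    rw [spAdj, neg_mul]
    exact this
  · intro h
    rw [SymplecticGroup.mem_iff']
    have h3 := congrArg (fun X => JJ * X) h
    simp only [spAdj, mul_one, neg_mul, mul_neg] at h3
    have h4 : JJ * (JJ * Aᵀ * JJ * A) = (JJ * JJ) * (Aᵀ * JJ * A) := by
      simp only [Matrix.mul_assoc]
    rw [h4, J_squared] at h3
    simpa using h3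

theorem exists_RU {u : MM} (hm : 1 ≤ m) (sp : spAdj u * u = 1) (nil : (u - 1) ^ (2 * m) = 0)
    (rk : (u - 1).rank = 2 * m - 1) : ∃ e : VV, RU u e := by
  have h1 := LinearMap.finrank_range_add_finrank_ker (Matrix.mulVecLin (u - 1))
  have h2 : finrank F (LinearMap.range (Matrix.mulVecLin (u - 1))) = 2 * m - 1 := rk
  have h3 : finrank F VV = 2 * m := by
    simp
    omega
  rw [h2, h3] at h1
  obtain ⟨e, he⟩ := exists_cyclic (Matrix.mulVecLin (u - 1)) (2 * m) h3 (by omega)
    (by rw [← mulVecLin_pow_eq, nil]; ext; simp) (by omega)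
  refine ⟨e, hm, sp, nil, ?_, rk⟩
  rw [← mulVecLin_pow_eq] at he
  exact he

/-- The centraliser in `Sp_2m(F)` of a regular unipotent element. -/
theorem card_centralizer_sp [Fintype F] (h2 : (2 : F) ≠ 0) (hm : 1 ≤ m) (u : symplecticGroup (Fin m) F)
    (hnil : ((u : MM) - 1) ^ (2 * m) = 0) (hreg : ((u : MM) - 1).rank = 2 * m - 1) :
    Nat.card (Subgroup.centralizer ({u} : Set (symplecticGroup (Fin m) F))) = 2 * Fintype.card F ^ m := by
  obtain ⟨e, R⟩ := exists_RU hm (mem_sp_iff.1 u.2) hnil hreg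
  rw [← R.card_C h2]
  let f : Subgroup.centralizer ({u} : Set (symplecticGroup (Fin m) F)) →
      {g : MM // Commute g ((u : MM) - 1) ∧ spAdj g * g = 1} := fun g => ⟨g.1.1, by
    have h3 := Subgroup.mem_centralizer_iff.1 g.2 u rfl
    have h4 : (u : MM) * g.1.1 = g.1.1 * (u : MM) := congrArg Subtype.val h3
    have h5 : Commute g.1.1 (u : MM) := h4.symm
    exact h5.sub_right (Commute.one_right _), mem_sp_iff.1 g.1.2⟩
  have hf : Function.Bijective f := by
    constructor
    · intro g g' h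
      have h' : (f g).1 = (f g').1 := congrArg Subtype.val h
      exact Subtype.ext (Subtype.ext h')
    · rintro ⟨g, h3, h4⟩
      have h5 : g ∈ symplecticGroup (Fin m) F := mem_sp_iff.2 h4
      refine ⟨⟨⟨g, h5⟩, ?_⟩, rfl⟩
      rw [Subgroup.mem_centralizer_iff]
      intro x hx
      have hx' : x = u := hx
      rw [hx']
      apply Subtype.ext
      have h6 : Commute g (u : MM) := by
        have := h3.add_right (Commute.one_right g)
        simpa using this
      exact h6.eq.symm
  exact Nat.card_congr (Equiv.ofBijective f hf)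

end Cfsg.Agent.Lib.RegUnip
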