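import Mathlib
import Cfsg.Agent.Lib.RegUnip.SpCent

/-! The two classes of regular unipotent elements of the symplectic group over a field of odd order. -/

set_option autoImplicit false
set_option linter.unusedSimpArgs false
set_option linter.unusedVariables false
set_option linter.unusedSectionVars false
set_option linter.style.haveILetI false

namespace Cfsg.Agent.Lib.RegUnip

open Module Matrix
open scoped MatrixGroups

variable {F : Type*} [Field F] {m : ℕ}

local notation "MM" => Matrix (Fin m ⊕ Fin m) (Fin m ⊕ Fin m) F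
local notation "VV" => (Fin m ⊕ Fin m → F)
local notation "JJ" => Matrix.J (Fin m) F

theorem spAdj_pow (x : MM) (k : ℕ) : spAdj (x ^ k) = spAdj x ^ k := by
  induction k with
  | zero => simp [spAdj_one]
  | succ k ih => rw [pow_succ, spAdj_mul, ih, pow_succ']

theorem exists_odd_pow_eq_one [Fintype F] (h2 : (2 : F) ≠ 0) (hm : 1 ≤ m) {y : MM} (k : ℕ) (hy : (y - 1) ^ k = 0) :
    ∃ n : ℕ, Odd n ∧ y ^ n = 1 := by
  haveI : Nonempty (Fin m ⊕ Fin m) := ⟨Sum.inl ⟨0, hm⟩⟩
  obtain ⟨p, hp⟩ := CharP.exists F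
  haveI : Fact p.Prime := ⟨CharP.char_is_prime F p⟩
  have hodd : Odd p := by
    apply Nat.Prime.odd_of_ne_two (Fact.out)
    rintro rfl
    exact h2 (by exact_mod_cast CharP.cast_eq_zero F 2)
  refine ⟨p ^ k, hodd.pow, ?_⟩
  have h3 := sub_pow_char_pow_of_commute p k (Commute.one_right y)
  have h4 : k ≤ p ^ k := (Nat.lt_pow_self (Fact.out : p.Prime).one_lt).le
  rw [pow_eq_zero_of_le h4 hy, one_pow] at h3
  exact (sub_eq_zero.1 h3.symm)

theorem RU.exists_conj [Fintype F] (h2 : (2 : F) ≠ 0) {u u' : MM} {e e' : VV} (R : RU u e) (R' : RU u' e')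
    (h : spF e (spZ u e) = spF e' (spZ u' e')) : ∃ g : MM, spAdj g * g = 1 ∧ g * u = u' * g := by
  have hnil : (Matrix.mulVecLin (u - 1)) ^ (2 * m) = 0 := by
    rw [← mulVecLin_pow_eq, R.nil]
    ext
    simp
  have hnil' : (Matrix.mulVecLin (u' - 1)) ^ (2 * m) = 0 := by
    rw [← mulVecLin_pow_eq, R'.nil]
    ext
    simp
  have he : ((Matrix.mulVecLin (u - 1)) ^ (2 * m - 1)) e ≠ 0 := by
    rw [← mulVecLin_pow_eq]
    exact R.ne
  have he' : ((Matrix.mulVecLin (u' - 1)) ^ (2 * m - 1)) e' ≠ 0 := by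
    rw [← mulVecLin_pow_eq]
    exact R'.ne
  obtain ⟨E, hEe, hEN⟩ := exists_equiv_conj (Matrix.mulVecLin (u - 1)) (Matrix.mulVecLin (u' - 1)) (2 * m) R.finrankV
    hnil hnil' e e' he he'
  let g₀ : MM := (glOfEquiv E : Matrix.GeneralLinearGroup _ F)
  have hg : ∀ v, g₀ *ᵥ v = E v := glOfEquiv_mulVec E
  have hN : g₀ * (u - 1) = (u' - 1) * g₀ := by
    apply Matrix.mulVec_injective
    funext v
    rw [← mulVec_mulVec, ← mulVec_mulVec, hg, hg]
    exact hEN v
  have hu : g₀ * u = u' * g₀ := by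
    have h3 : g₀ * u - g₀ = u' * g₀ - g₀ := by
      rw [mul_sub, sub_mul, mul_one, one_mul] at hN
      exact hN
    exact sub_left_inj.1 h3
  have hadj : spAdj g₀ * u' = u * spAdj g₀ := by
    have h3 : spAdj u * spAdj g₀ = spAdj g₀ * spAdj u' := by
      rw [← spAdj_mul, ← spAdj_mul, hu]
    calc spAdj g₀ * u' = (u * spAdj u) * (spAdj g₀ * u') := by rw [R.sp', one_mul]
      _ = u * (spAdj u * spAdj g₀) * u' := by simp only [Matrix.mul_assoc]
      _ = u * (spAdj g₀ * spAdj u') * u' := by rw [h3]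
      _ = u * spAdj g₀ * (spAdj u' * u') := by simp only [Matrix.mul_assoc]
      _ = u * spAdj g₀ := by rw [R'.sp, mul_one]
  let y : MM := spAdj g₀ * g₀
  have hy_adj : spAdj y = y := by
    show spAdj (spAdj g₀ * g₀) = spAdj g₀ * g₀
    rw [spAdj_mul, spAdj_adj]
  have hyu : Commute y u := by
    show spAdj g₀ * g₀ * u = u * (spAdj g₀ * g₀)
    rw [Matrix.mul_assoc, hu, ← Matrix.mul_assoc, hadj, Matrix.mul_assoc]
  have hyN : Commute y (u - 1) := hyu.sub_right (Commute.one_right _)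
  obtain ⟨c, w, hw⟩ := R.decomp (y *ᵥ e)
  have hz : g₀ *ᵥ spZ u e = spZ u' e' := by
    have h3 : g₀ * (u - 1) ^ (2 * m - 1) = (u' - 1) ^ (2 * m - 1) * g₀ :=
      SemiconjBy.pow_right (show SemiconjBy g₀ (u - 1) (u' - 1) from hN) _
    rw [spZ, mulVec_mulVec, h3, ← mulVec_mulVec, hg, hEe]
    rfl
  have h1 : spF (y *ᵥ e) (spZ u e) = spF e' (spZ u' e') := by
    show spF ((spAdj g₀ * g₀) *ᵥ e) (spZ u e) = _
    rw [← mulVec_mulVec, spF_adj, spAdj_adj, hz, hg, hEe]
  rw [R.spF_x_z hw, ← h] at h1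
  have hc : c = 1 := by
    have h3 : (c - 1) * spF e (spZ u e) = 0 := by linear_combination h1
    rcases mul_eq_zero.1 h3 with h4 | h4
    · exact sub_eq_zero.1 h4
    · exact absurd h4 R.sigma_ne
  have hsub : (y - 1) *ᵥ e ∈ spH u := by
    have h3 : (y - 1) *ᵥ e = (u - 1) *ᵥ w := by
      rw [sub_mulVec, one_mulVec, hw, hc, one_smul]
      abel
    rw [h3]
    exact mem_spH.2 ⟨w, rfl⟩
  obtain ⟨r, hr, hyr⟩ := R.exists_factor hyN hsub
  have hynil : (y - 1) ^ (2 * m) = 0 := by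
    rw [hyr, (hr.symm).mul_pow, R.nil, zero_mul]
  obtain ⟨n, hn, hyn⟩ := exists_odd_pow_eq_one h2 R.m1 (2 * m) hynil
  obtain ⟨k, rfl⟩ := hn
  refine ⟨g₀ * y ^ k, ?_, ?_⟩
  · rw [spAdj_mul, spAdj_pow, hy_adj]
    calc y ^ k * spAdj g₀ * (g₀ * y ^ k) = y ^ k * y * y ^ k := by
          simp only [Matrix.mul_assoc, y]
      _ = y ^ (2 * k + 1) := by
          rw [← pow_succ, ← pow_add]
          congr 1
          ring
      _ = 1 := hyn
  · rw [Matrix.mul_assoc, (hyu.pow_left k).eq, ← Matrix.mul_assoc, hu, Matrix.mul_assoc]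

theorem RU.cinv_change {u : MM} {e e' : VV} (R : RU u e) (R' : RU u e') :
    ∃ α : F, α ≠ 0 ∧ spF e' (spZ u e') = α ^ 2 * spF e (spZ u e) := by
  obtain ⟨α, w, hw⟩ := R.decomp e'
  have hα : α ≠ 0 := by
    rintro rfl
    apply R'.e_not_mem
    rw [hw, zero_smul, zero_add]
    exact mem_spH.2 ⟨w, rfl⟩
  refine ⟨α, hα, ?_⟩
  have h2 : 2 * m - 1 + 1 = 2 * m := by
    have := R.m1
    omega
  have hz : spZ u e' = α • spZ u e := by
    rw [spZ, hw, mulVec_add, mulVec_smul, mulVec_mulVec, ← pow_succ, h2, R.nil, zero_mulVec, add_zero]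
    rfl
  rw [hz, spF_smul_right, hw, spF_add_left, spF_smul_left, R.spF_H_z (mem_spH.2 ⟨w, rfl⟩)]
  ring

theorem spZ_smul (u : MM) (e : VV) (β : F) : spZ u (β • e) = β • spZ u e := by
  rw [spZ, mulVec_smul]
  rfl

theorem RU.scale {u : MM} {e : VV} (R : RU u e) {β : F} (hβ : β ≠ 0) :
    RU u (β • e) ∧ spF (β • e) (spZ u (β • e)) = β ^ 2 * spF e (spZ u e) := by
  constructor
  · refine ⟨R.m1, R.sp, R.nil, ?_, R.rk⟩
    rw [mulVec_smul]
    exact smul_ne_zero hβ R.ne
  · rw [spZ_smul, spF_smul_left, spF_smul_right]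
    ring

theorem RU.conj {u : MM} {e : VV} (R : RU u e) {g g' : MM} {μ : F} (h1 : g * g' = 1) (hμ : μ ≠ 0)
    (h : spAdj g * g = μ • 1) :
    RU (g * u * g') (g *ᵥ e) ∧ spF (g *ᵥ e) (spZ (g * u * g') (g *ᵥ e)) = μ * spF e (spZ u e) := by
  have h1' : g' * g = 1 := mul_eq_one_comm.1 h1
  have hN : g * u * g' - 1 = g * (u - 1) * g' := by
    rw [mul_sub, sub_mul, mul_one, h1]
  have hpow : ∀ k : ℕ, (g * u * g' - 1) ^ k = g * (u - 1) ^ k * g' := by
    intro k
    induction k with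
    | zero => simp [h1]
    | succ k ih =>
      rw [pow_succ, ih, hN, pow_succ]
      calc g * (u - 1) ^ k * g' * (g * (u - 1) * g') = g * (u - 1) ^ k * (g' * g) * (u - 1) * g' := by
            simp only [Matrix.mul_assoc]
        _ = g * ((u - 1) ^ k * (u - 1)) * g' := by
            rw [h1', mul_one]
            simp only [Matrix.mul_assoc]
  have hgadj : spAdj g = μ • g' := by
    calc spAdj g = spAdj g * (g * g') := by rw [h1, mul_one]
      _ = (spAdj g * g) * g' := (Matrix.mul_assoc _ _ _).symm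
      _ = μ • g' := by rw [h, smul_mul_assoc, one_mul]
  have hg'adj : spAdj g' = μ⁻¹ • g := by
    have h3 : spAdj g' * spAdj g = 1 := by
      rw [← spAdj_mul, h1, spAdj_one]
    rw [hgadj, mul_smul_comm] at h3
    have h4 : spAdj g' * g' = μ⁻¹ • 1 := by
      have := congrArg (fun X => μ⁻¹ • X) h3
      simpa [smul_smul, inv_mul_cancel₀ hμ] using this
    calc spAdj g' = spAdj g' * (g' * g) := by rw [h1', mul_one]
      _ = (spAdj g' * g') * g := (Matrix.mul_assoc _ _ _).symm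
      _ = μ⁻¹ • g := by rw [h4, smul_mul_assoc, one_mul]
  have hadj : spAdj (g * u * g') = g * spAdj u * g' := by
    rw [spAdj_mul, spAdj_mul, hg'adj, hgadj, smul_mul_assoc, mul_smul_comm, mul_smul_comm, smul_smul,
      inv_mul_cancel₀ hμ, one_smul, Matrix.mul_assoc]
  have hdet : IsUnit g.det := by
    exact Matrix.isUnit_det_of_right_inverse h1
  have hdet' : IsUnit g'.det := by
    exact Matrix.isUnit_det_of_left_inverse h1
  have hz : (g * u * g' - 1) ^ (2 * m - 1) *ᵥ (g *ᵥ e) = g *ᵥ spZ u e := by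
    rw [hpow, mulVec_mulVec, spZ, mulVec_mulVec, Matrix.mul_assoc, Matrix.mul_assoc, h1', mul_one]
  refine ⟨⟨R.m1, ?_, ?_, ?_, ?_⟩, ?_⟩
  · rw [hadj]
    calc g * spAdj u * g' * (g * u * g') = g * spAdj u * (g' * g) * u * g' := by simp only [Matrix.mul_assoc]
      _ = g * (spAdj u * u) * g' := by
          rw [h1', mul_one]
          simp only [Matrix.mul_assoc]
      _ = 1 := by rw [R.sp, mul_one, h1]
  · rw [hpow, R.nil, mul_zero, zero_mul]
  · rw [hz]
    intro h3
    apply R.ne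
    have h4 : g' *ᵥ (g *ᵥ spZ u e) = g' *ᵥ 0 := by rw [h3]
    rw [mulVec_mulVec, h1', one_mulVec, mulVec_zero] at h4
    exact h4
  · rw [hN, Matrix.rank_mul_eq_left_of_isUnit_det _ _ hdet', Matrix.rank_mul_eq_right_of_isUnit_det _ _ hdet]
    exact R.rk
  · have h3 : spZ (g * u * g') (g *ᵥ e) = g *ᵥ spZ u e := hz
    rw [h3, spF_adj, mulVec_mulVec, h, smul_mulVec, one_mulVec, spF_smul_right]

/-- A regular unipotent element of the symplectic group. -/
theorem exists_reg_sp (hm : 1 ≤ m) :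
    ∃ u : MM, spAdj u * u = 1 ∧ (u - 1) ^ (2 * m) = 0 ∧ (u - 1).rank = 2 * m - 1 := by
  classical
  obtain ⟨A, hdet, hnil, hrk⟩ := exists_regular_unipotent (F := F) m hm
  have hdu : IsUnit A.det := by
    rw [hdet]
    exact isUnit_one
  have h1 : A⁻¹ * A = 1 := Matrix.nonsing_inv_mul _ hdu
  have h1' : A * A⁻¹ = 1 := Matrix.mul_nonsing_inv _ hdu
  have hkE : finrank F (LinearMap.ker (Matrix.mulVecLin (A - 1))) = 1 := by
    have h3 := LinearMap.finrank_range_add_finrank_ker (Matrix.mulVecLin (A - 1))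
    have h4 : finrank F (LinearMap.range (Matrix.mulVecLin (A - 1))) = m - 1 := hrk
    rw [h4] at h3
    simp only [finrank_fintype_fun_eq_card, Fintype.card_fin] at h3
    omega
  have hk : finrank F (LinearMap.ker (Matrix.mulVecLin (A - 1)ᵀ)) = 1 := by
    have h3 := LinearMap.finrank_range_add_finrank_ker (Matrix.mulVecLin (A - 1)ᵀ)
    have h4 : finrank F (LinearMap.range (Matrix.mulVecLin (A - 1)ᵀ)) = m - 1 := by
      show (A - 1)ᵀ.rank = m - 1
      rw [Matrix.rank_transpose, hrk]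
    rw [h4] at h3
    simp only [finrank_fintype_fun_eq_card, Fintype.card_fin] at h3
    omega
  obtain ⟨⟨y₀, hy₀⟩, hne, hspan⟩ := finrank_eq_one_iff'.1 hk
  have hy₀' : (A - 1)ᵀ *ᵥ y₀ = 0 := hy₀
  have hy₀ne : y₀ ≠ 0 := fun h => hne (Subtype.ext h)
  obtain ⟨i, hi⟩ := Function.ne_iff.1 hy₀ne
  let S : Matrix (Fin m) (Fin m) F := Matrix.single i i 1
  have hS : Sᵀ = S := by
    simp [S]
  let B := A * S
  let G := (A⁻¹)ᵀ - 1
  let N : MM := fromBlocks (A - 1) B 0 G
  let u : MM := fromBlocks A B 0 (A⁻¹)ᵀ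
  have hN : u - 1 = N := by
    rw [← fromBlocks_one, sub_eq_add_neg, fromBlocks_neg, fromBlocks_add]
    simp [N, G, sub_eq_add_neg]
  have hpow : ∀ k : ℕ, ∃ X, N ^ k = fromBlocks ((A - 1) ^ k) X 0 (G ^ k) := by
    intro k
    induction k with
    | zero => exact ⟨0, by simp⟩
    | succ k ih =>
      obtain ⟨X, hX⟩ := ih
      refine ⟨(A - 1) ^ k * B + X * G, ?_⟩
      rw [pow_succ, hX, fromBlocks_multiply]
      simp [pow_succ]
  have hG : G ^ m = 0 := by
    have h3 : G = (-(A⁻¹ * (A - 1)))ᵀ := by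
      have : A⁻¹ * (A - 1) = 1 - A⁻¹ := by
        rw [mul_sub, h1, mul_one]
      rw [this, neg_sub, transpose_sub, transpose_one]
    have h4 : Commute A⁻¹ (A - 1) := by
      show A⁻¹ * (A - 1) = (A - 1) * A⁻¹
      rw [mul_sub, sub_mul, h1, h1', mul_one, one_mul]
    rw [h3, ← transpose_pow, neg_pow, h4.mul_pow, hnil]
    simp
  refine ⟨u, ?_, ?_, ?_⟩
  · apply mem_sp_iff.1
    apply SymplecticGroup.fromBlocks_mem_iff.2
    refine ⟨by simp, ?_, ?_⟩
    · show (A * S)ᵀ * (A⁻¹)ᵀ = ((A⁻¹)ᵀ)ᵀ * (A * S)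
      rw [transpose_mul, Matrix.mul_assoc, ← transpose_mul, h1, transpose_one, mul_one, transpose_transpose,
        ← Matrix.mul_assoc, h1, one_mul, hS]
    · rw [← transpose_mul, h1, transpose_one]
      simp
  · obtain ⟨X, hX⟩ := hpow m
    rw [hN, mul_comm, pow_mul, hX, hnil, hG, pow_two, fromBlocks_multiply]
    simp
  · rw [hN]
    have hker : ∀ v : VV, N *ᵥ v = 0 → v ∘ Sum.inr = 0 ∧ (A - 1) *ᵥ (v ∘ Sum.inl) = 0 := by
      intro v hv
      rw [fromBlocks_mulVec] at hv
      have h5 : (A - 1) *ᵥ (v ∘ Sum.inl) + B *ᵥ (v ∘ Sum.inr) = 0 := by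
        funext j
        exact congrFun hv (Sum.inl j)
      have h6 : G *ᵥ (v ∘ Sum.inr) = 0 := by
        funext j
        have := congrFun hv (Sum.inr j)
        simpa using this
      set y := v ∘ Sum.inr with hy
      set x := v ∘ Sum.inl with hx
      have h7 : (A - 1)ᵀ *ᵥ y = 0 := by
        have h8 : (A - 1)ᵀ = -(Aᵀ * G) := by
          simp only [G, mul_sub, mul_one]
          rw [← transpose_mul, h1, transpose_one, transpose_sub, transpose_one, neg_sub]
        rw [h8, neg_mulVec, ← mulVec_mulVec, h6, mulVec_zero, neg_zero]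
      obtain ⟨c, hc⟩ := hspan ⟨y, h7⟩
      have hc' : c • y₀ = y := congrArg Subtype.val hc
      have hAy : Aᵀ *ᵥ y₀ = y₀ := by
        rw [transpose_sub, transpose_one, sub_mulVec, one_mulVec, sub_eq_zero] at hy₀'
        exact hy₀'
      have h9 : y₀ i * y i = 0 := by
        have h10 := congrArg (fun w => y₀ ⬝ᵥ w) h5
        simp only [dotProduct_add, dotProduct_zero] at h10
        rw [dotProduct_mulVec, ← mulVec_transpose, hy₀', zero_dotProduct, zero_add] at h10
        have h11 : B *ᵥ y = A *ᵥ (y i • Pi.single i 1) := by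
          rw [← mulVec_mulVec]
          congr 1
          funext j
          by_cases hj : j = i
          · subst hj
            simp [S, Matrix.single, mulVec, dotProduct, Pi.single_apply, Matrix.of_apply]
          · have hj' : i ≠ j := fun h => hj h.symm
            simp [S, Matrix.single, mulVec, dotProduct, Pi.single_apply, Matrix.of_apply, hj, hj']
        rw [h11, dotProduct_mulVec, ← mulVec_transpose, hAy, dotProduct_smul, smul_eq_mul] at h10
        simpa [mul_comm] using h10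
      have hci : c = 0 := by
        have h12 : y i = c * y₀ i := by
          rw [← hc']
          rfl
        rw [h12] at h9
        have h13 : y₀ i * y₀ i * c = 0 := by linear_combination h9
        exact (mul_eq_zero.1 h13).resolve_left (mul_ne_zero hi hi)
      have hy0 : y = 0 := by
        rw [← hc', hci, zero_smul]
      refine ⟨hy0, ?_⟩
      rw [hy0, mulVec_zero, add_zero] at h5
      exact h5
    have hle : finrank F (LinearMap.ker (Matrix.mulVecLin N)) ≤ 1 := by
      rw [← hkE]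
      let L : LinearMap.ker (Matrix.mulVecLin N) →ₗ[F] LinearMap.ker (Matrix.mulVecLin (A - 1)) :=
        LinearMap.codRestrict _ ((LinearMap.funLeft F F Sum.inl).comp (Submodule.subtype _)) (by
          intro v
          exact (hker v.1 v.2).2)
      apply LinearMap.finrank_le_finrank_of_injective (f := L)
      rw [← LinearMap.ker_eq_bot, LinearMap.ker_eq_bot']
      intro v hv
      have h3 : v.1 ∘ Sum.inl = 0 := congrArg Subtype.val hv
      have h4 := (hker v.1 v.2).1
      apply Subtype.ext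
      funext j
      rcases j with j | j
      · exact congrFun h3 j
      · exact congrFun h4 j
    have hpos : finrank F (LinearMap.ker (Matrix.mulVecLin N)) ≠ 0 := by
      intro h0
      have hb := Submodule.finrank_eq_zero.1 h0
      obtain ⟨X, hX⟩ := hpow m
      have hdN : N.det = 0 := by
        haveI : Nonempty (Fin m ⊕ Fin m) := ⟨Sum.inl ⟨0, hm⟩⟩
        have h5 : N ^ (2 * m) = 0 := by
          rw [mul_comm, pow_mul, hX, hnil, hG, pow_two, fromBlocks_multiply]
          simp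
        have h6 := congrArg Matrix.det h5
        rw [det_pow, det_zero] at h6
        exact pow_eq_zero_iff (by omega) |>.1 h6
      obtain ⟨v, hv0, hv⟩ := Matrix.exists_mulVec_eq_zero_iff.2 hdN
      have : v ∈ LinearMap.ker (Matrix.mulVecLin N) := hv
      rw [hb] at this
      exact hv0 this
    have h3 := LinearMap.finrank_range_add_finrank_ker (Matrix.mulVecLin N)
    have h4 : finrank F (Fin m ⊕ Fin m → F) = 2 * m := by
      simp
      omega
    rw [h4] at h3
    show finrank F (LinearMap.range (Matrix.mulVecLin N)) = 2 * m - 1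
    omega

/-- The similitude matrix. -/
def simD (μ : F) : MM := fromBlocks 1 0 0 (μ • 1)

theorem simD_mul (μ : F) (hμ : μ ≠ 0) : simD (m := m) μ * simD μ⁻¹ = 1 := by
  rw [simD, simD, fromBlocks_multiply]
  simp [smul_smul, mul_inv_cancel₀ hμ, inv_mul_cancel₀ hμ]

theorem simD_adj (μ : F) : spAdj (simD (m := m) μ) * simD μ = μ • 1 := by
  rw [spAdj, simD, J, fromBlocks_transpose, fromBlocks_multiply, fromBlocks_multiply, fromBlocks_neg, fromBlocks_multiply]
  rw [← fromBlocks_one, fromBlocks_smul]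
  simp

theorem square_class [Fintype F] {x μ : F} (hx : x ≠ 0) (hμ0 : μ ≠ 0) (hμ : ¬IsSquare μ) :
    ∃ β : F, β ≠ 0 ∧ (x = β ^ 2 ∨ x = β ^ 2 * μ) := by
  classical
  have h1 := quadraticChar_neg_one_iff_not_isSquare.2 hμ
  by_cases h : IsSquare x
  · obtain ⟨β, hβ⟩ := h
    refine ⟨β, ?_, Or.inl (by rw [hβ]; ring)⟩
    rintro rfl
    simp at hβ
    exact hx hβ
  · have h2 := quadraticChar_neg_one_iff_not_isSquare.2 h
    have h3 : quadraticChar F (x * μ⁻¹) = 1 := by
      have h4 : quadraticChar F (x * μ⁻¹) * quadraticChar F μ = quadraticChar F x := by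
        rw [← map_mul, mul_assoc, inv_mul_cancel₀ hμ0, mul_one]
      rw [h1, h2] at h4
      linarith
    have h5 := (quadraticChar_one_iff_isSquare (mul_ne_zero hx (inv_ne_zero hμ0))).1 h3
    obtain ⟨β, hβ⟩ := h5
    have hβ0 : β ≠ 0 := by
      rintro rfl
      simp at hβ
      rcases hβ with h6 | h6
      · exact hx h6
      · exact hμ0 h6
    refine ⟨β, hβ0, Or.inr ?_⟩
    have : x = (x * μ⁻¹) * μ := by
      rw [mul_assoc, inv_mul_cancel₀ hμ0, mul_one]
    rw [this, hβ]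
    ring

/-- Regular unipotent elements form exactly two classes. -/
theorem card_reg_classes [Fintype F] (h2 : (2 : F) ≠ 0) (hm : 1 ≤ m) :
    Nat.card {C : ConjClasses (symplecticGroup (Fin m) F) // ∃ u : symplecticGroup (Fin m) F, ConjClasses.mk u = C ∧
      ((u : MM) - 1) ^ (2 * m) = 0 ∧ ((u : MM) - 1).rank = 2 * m - 1} = 2 := by
  classical
  have hch : ringChar F ≠ 2 := by
    intro h
    apply h2
    have := ringChar.Nat.cast_ringChar (R := F)
    rw [h] at this
    exact_mod_cast this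
  obtain ⟨μ, hμ⟩ := FiniteField.exists_nonsquare hch
  have hμ0 : μ ≠ 0 := by
    rintro rfl
    exact hμ (IsSquare.zero)
  obtain ⟨u₁, hsp₁, hnil₁, hrk₁⟩ := exists_reg_sp (F := F) hm
  obtain ⟨e₁, R₁⟩ := exists_RU hm hsp₁ hnil₁ hrk₁
  obtain ⟨R₂, hσ₂⟩ := R₁.conj (simD_mul μ hμ0) hμ0 (simD_adj μ)
  set u₂ := simD μ * u₁ * simD μ⁻¹ with hu₂
  set e₂ := simD μ *ᵥ e₁ with he₂
  let U₁ : symplecticGroup (Fin m) F := ⟨u₁, mem_sp_iff.2 hsp₁⟩
  let U₂ : symplecticGroup (Fin m) F := ⟨u₂, mem_sp_iff.2 R₂.sp⟩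
  have key : ∀ (u : symplecticGroup (Fin m) F), ((u : MM) - 1) ^ (2 * m) = 0 → ((u : MM) - 1).rank = 2 * m - 1 →
      ConjClasses.mk u = ConjClasses.mk U₁ ∨ ConjClasses.mk u = ConjClasses.mk U₂ := by
    intro u hn hr
    obtain ⟨e, R⟩ := exists_RU hm (mem_sp_iff.1 u.2) hn hr
    have hσ : spF e (spZ (u : MM) e) * (spF e₁ (spZ u₁ e₁))⁻¹ ≠ 0 :=
      mul_ne_zero R.sigma_ne (inv_ne_zero R₁.sigma_ne)
    obtain ⟨β, hβ0, hβ⟩ := square_class hσ hμ0 hμ
    obtain ⟨R', hσ'⟩ := R.scale (inv_ne_zero hβ0)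
    have to_class : ∀ (U : symplecticGroup (Fin m) F) (f : VV), RU (U : MM) f →
        spF (β⁻¹ • e) (spZ (u : MM) (β⁻¹ • e)) = spF f (spZ (U : MM) f) → ConjClasses.mk u = ConjClasses.mk U := by
      intro U f Rf hh
      obtain ⟨g, hg1, hg2⟩ := R'.exists_conj h2 Rf hh
      rw [ConjClasses.mk_eq_mk_iff_isConj, isConj_iff]
      refine ⟨⟨g, mem_sp_iff.2 hg1⟩, ?_⟩
      rw [mul_inv_eq_iff_eq_mul]
      exact Subtype.ext hg2
    rcases hβ with hβ | hβ
    · left
      apply to_class U₁ e₁ R₁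
      rw [hσ']
      have h3 : spF e (spZ (u : MM) e) = β ^ 2 * spF e₁ (spZ u₁ e₁) := by
        rw [← hβ, mul_assoc, inv_mul_cancel₀ R₁.sigma_ne, mul_one]
      rw [h3]
      field_simp
      rfl
    · right
      apply to_class U₂ e₂ R₂
      have h3 : spF e (spZ (u : MM) e) = β ^ 2 * μ * spF e₁ (spZ u₁ e₁) := by
        rw [← hβ, mul_assoc, inv_mul_cancel₀ R₁.sigma_ne, mul_one]
      rw [hσ']
      show _ = spF e₂ (spZ u₂ e₂)
      rw [hσ₂, h3]
      field_simp
  apply Nat.card_eq_two_iff.2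
  refine ⟨⟨ConjClasses.mk U₁, U₁, rfl, hnil₁, hrk₁⟩, ⟨ConjClasses.mk U₂, U₂, rfl, R₂.nil, R₂.rk⟩, ?_, ?_⟩
  · intro h3
    have h4 : ConjClasses.mk U₁ = ConjClasses.mk U₂ := congrArg Subtype.val h3
    rw [ConjClasses.mk_eq_mk_iff_isConj, isConj_iff] at h4
    obtain ⟨c, hc⟩ := h4
    have hc' : (c : MM) * u₁ * ((c⁻¹ : symplecticGroup (Fin m) F) : MM) = u₂ := congrArg Subtype.val hc
    have hc1 : (c : MM) * ((c⁻¹ : symplecticGroup (Fin m) F) : MM) = 1 :=
      congrArg Subtype.val (mul_inv_cancel c)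
    have hc2 : spAdj (c : MM) * (c : MM) = (1 : F) • 1 := by
      rw [one_smul]
      exact mem_sp_iff.1 c.2
    obtain ⟨R₃, hσ₃⟩ := R₁.conj hc1 one_ne_zero hc2
    rw [hc'] at R₃ hσ₃
    obtain ⟨α, hα, hα'⟩ := R₂.cinv_change R₃
    rw [hσ₃, hσ₂] at hα'
    apply hμ
    have h5 : μ = α⁻¹ * α⁻¹ := by
      have h6 := R₁.sigma_ne
      have h7 : 1 = α ^ 2 * μ := by
        have h8 : (1 - α ^ 2 * μ) * spF e₁ (spZ u₁ e₁) = 0 := by linear_combination hα'
        rcases mul_eq_zero.1 h8 with h9 | h9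
        · exact sub_eq_zero.1 h9
        · exact absurd h9 h6
      field_simp
      linear_combination -h7
    exact ⟨α⁻¹, h5⟩
  · rw [Set.eq_univ_iff_forall]
    rintro ⟨C, u, rfl, hn, hr⟩
    rcases key u hn hr with h3 | h3
    · left
      exact Subtype.ext h3
    · right
      exact Subtype.ext h3

end Cfsg.Agent.Lib.RegUnip
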