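import Mathlib
import Cfsg.Agent.Lib.Known.GLConj
import Cfsg.Agent.Lib.RegUnip.SpReg

/-! Conjugacy classes of involutions of `PGL_n(q)`, `q` odd. -/

set_option autoImplicit false
set_option linter.unusedSimpArgs false
set_option linter.unusedVariables false
set_option linter.unusedSectionVars false
set_option linter.style.haveILetI false

namespace Cfsg.Agent.Lib.RegUnip.PGLInvol

open Polynomial Module Matrix
open Cfsg.Agent.Lib.Known.GLConj

section Shape

variable {F : Type*} [Field F]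

theorem shape {p₁ p₂ : F[X]} (h₁ : p₁.Monic) (h₂ : p₂.Monic) (i₁ : Irreducible p₁) (i₂ : Irreducible p₂) :
    ∀ (d : ℕ) (χ : F[X]), χ.natDegree = d → χ.Monic → (∀ π : F[X], Irreducible π → π ∣ χ → π ∣ p₁ ∨ π ∣ p₂) →
      ∃ a b : ℕ, χ = p₁ ^ a * p₂ ^ b := by
  intro d
  induction d using Nat.strong_induction_on with
  | _ d ih =>
    intro χ hd hm hπ
    by_cases h0 : χ.natDegree = 0
    · refine ⟨0, 0, ?_⟩
      simpa using (Polynomial.Monic.natDegree_eq_zero hm).1 h0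
    · obtain ⟨π, hπi, hπd⟩ := exists_irreducible_of_natDegree_ne_zero h0
      rcases hπ π hπi hπd with h | h
      · have h3 : p₁ ∣ χ := ((hπi.associated_of_dvd i₁ h).symm.dvd).trans hπd
        obtain ⟨χ', rfl⟩ := h3
        have hm' : χ'.Monic := h₁.of_mul_monic_left hm
        have hdeg := h₁.natDegree_mul hm'
        have hpos := i₁.natDegree_pos
        obtain ⟨a, b, hab⟩ := ih χ'.natDegree (by omega) χ' rfl hm'
          (fun π' h4 h5 => hπ π' h4 (h5.trans (dvd_mul_left _ _)))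
        exact ⟨a + 1, b, by rw [hab]; ring⟩
      · have h3 : p₂ ∣ χ := ((hπi.associated_of_dvd i₂ h).symm.dvd).trans hπd
        obtain ⟨χ', rfl⟩ := h3
        have hm' : χ'.Monic := h₂.of_mul_monic_left hm
        have hdeg := h₂.natDegree_mul hm'
        have hpos := i₂.natDegree_pos
        obtain ⟨a, b, hab⟩ := ih χ'.natDegree (by omega) χ' rfl hm'
          (fun π' h4 h5 => hπ π' h4 (h5.trans (dvd_mul_left _ _)))
        exact ⟨a, b + 1, by rw [hab]; ring⟩

variable {ι : Type*} [Fintype ι] [DecidableEq ι]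

theorem dvd_of_aeval_eq_zero (A : Matrix ι ι F) {p π : F[X]} (hp : aeval A p = 0) (hπ : Irreducible π)
    (hd : π ∣ A.charpoly) : π ∣ p := by
  by_contra h
  obtain ⟨u, w, huw⟩ := (hπ.coprime_iff_not_dvd).2 h
  have h1 := congrArg (aeval A) huw
  rw [map_add, map_mul, map_mul, hp, mul_zero, add_zero, map_one] at h1
  have h2 := congrArg Matrix.det h1
  rw [det_mul, det_aeval_eq_zero A hπ hd, mul_zero, det_one] at h2
  exact zero_ne_one h2

theorem semisimple_of_sq {A : Matrix ι ι F} {c : F} (h2 : (2 : F) ≠ 0) (hc : c ≠ 0) (h : A ^ 2 = c • 1) :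
    Module.End.IsSemisimple (Matrix.toLin' A : Module.End F (ι → F)) := by
  have hsq : Squarefree (X ^ 2 - C c : F[X]) :=
    (separable_X_pow_sub_C c (by exact_mod_cast h2) hc).squarefree
  refine Module.End.isSemisimple_of_squarefree_aeval_eq_zero hsq ?_
  have h3 : (Matrix.toLin' A : Module.End F (ι → F)) ^ 2 = algebraMap F (Module.End F (ι → F)) c := by
    rw [← Matrix.toLin'_pow, h, map_smul, Matrix.toLin'_one]
    ext
    simp
  rw [map_sub, map_pow, aeval_X, aeval_C, h3, sub_self]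

theorem conj_of_same (g h : GL ι F)
    (hg : Module.End.IsSemisimple (Matrix.toLin' (g : Matrix ι ι F) : Module.End F (ι → F)))
    (hh : Module.End.IsSemisimple (Matrix.toLin' (h : Matrix ι ι F) : Module.End F (ι → F)))
    (hχ : (g : Matrix ι ι F).charpoly = (h : Matrix ι ι F).charpoly) :
    ∃ c : GL ι F, (c : Matrix ι ι F) * g = h * c := by
  obtain ⟨e, he⟩ := matrix_conj _ _ hg hh hχ
  exact ⟨⟨_, _, toMatrix'_equiv_mul e, toMatrix'_symm_mul e⟩,
    toMatrix'_semiconj (e : (ι → F) →ₗ[F] (ι → F)) _ _ he⟩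

end Shape

section Main

variable {F : Type*} [Field F] {n : ℕ}

local notation "MM" => Matrix (Fin n) (Fin n) F
local notation "GG" => GL (Fin n) F

theorem mem_center' (g : GG) : g ∈ Subgroup.center GG ↔ ∃ a : F, (g : MM) = a • 1 := by
  rw [Matrix.GeneralLinearGroup.mem_center_iff_val_mem_range_scalar]
  constructor
  · rintro ⟨a, ha⟩
    refine ⟨a, ?_⟩
    show g.val = _
    rw [← ha]
    ext i j
    simp [Matrix.scalar_apply, Matrix.diagonal_apply, Matrix.one_apply]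
  · rintro ⟨a, ha⟩
    refine ⟨a, ?_⟩
    show _ = g.val
    have : g.val = a • 1 := ha
    rw [this]
    ext i j
    simp [Matrix.scalar_apply, Matrix.diagonal_apply, Matrix.one_apply]

/-- The class of the image in `PGL`. -/
def cl (g : GG) : ConjClasses (GG ⧸ Subgroup.center GG) := ConjClasses.mk (QuotientGroup.mk g)

/-- The scalar element. -/
def scG (a : F) (ha : a ≠ 0) : GG :=
  ⟨a • 1, a⁻¹ • 1, by rw [smul_mul_smul_comm, mul_inv_cancel₀ ha, one_smul, one_mul],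
    by rw [smul_mul_smul_comm, inv_mul_cancel₀ ha, one_smul, one_mul]⟩

theorem cl_eq_of {g h : GG} {c : GG} {a : F} (ha : a ≠ 0) (hc : (c : MM) * g = (a • (h : MM)) * c) : cl g = cl h := by
  rw [cl, cl, ConjClasses.mk_eq_mk_iff_isConj, isConj_iff]
  refine ⟨QuotientGroup.mk c, ?_⟩
  rw [← QuotientGroup.mk_inv, ← QuotientGroup.mk_mul, ← QuotientGroup.mk_mul, QuotientGroup.eq]
  rw [mem_center']
  refine ⟨a⁻¹, ?_⟩
  have h1 : ((c * g * c⁻¹ : GG) : MM) = a • (h : MM) := by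
    have h2 : (c : MM) * ((c⁻¹ : GG) : MM) = 1 := by
      rw [← Units.val_mul, mul_inv_cancel, Units.val_one]
    rw [Units.val_mul, Units.val_mul, hc, Matrix.mul_assoc, h2, mul_one]
  have h3 : (((c * g * c⁻¹)⁻¹ * h : GG) : MM) = a⁻¹ • (((c * g * c⁻¹)⁻¹ * (c * g * c⁻¹) : GG) : MM) := by
    rw [Units.val_mul, Units.val_mul, h1, mul_smul_comm, smul_smul, inv_mul_cancel₀ ha, one_smul]
  rw [h3, inv_mul_cancel, Units.val_one]

theorem exists_of_cl_eq {g h : GG} (hgh : cl g = cl h) :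
    ∃ (c : GG) (a : F), a ≠ 0 ∧ (c : MM) * g = (a • (h : MM)) * c := by
  rw [cl, cl, ConjClasses.mk_eq_mk_iff_isConj, isConj_iff] at hgh
  obtain ⟨x, hx⟩ := hgh
  obtain ⟨c, rfl⟩ := QuotientGroup.mk_surjective x
  rw [← QuotientGroup.mk_inv, ← QuotientGroup.mk_mul, ← QuotientGroup.mk_mul, QuotientGroup.eq, mem_center'] at hx
  obtain ⟨b, hb⟩ := hx
  have h1 : (h : MM) = b • ((c * g * c⁻¹ : GG) : MM) := by
    have h2 : (c * g * c⁻¹ : GG) * ((c * g * c⁻¹)⁻¹ * h) = h := by group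
    have h3 := congrArg (fun y : GG => (y : MM)) h2
    simp only [Units.val_mul] at h3 hb
    rw [← h3]
    simp only [Units.val_mul]
    rw [hb, mul_smul_comm, mul_one]
  by_cases hb0 : b = 0
  · subst hb0
    rw [zero_smul] at h1
    have h4 : ((h⁻¹ * h : GG) : MM) = 0 := by
      rw [Units.val_mul, h1, mul_zero]
    rw [inv_mul_cancel, Units.val_one] at h4
    have h5 : (1 : MM) = 0 := h4
    refine ⟨c, 1, one_ne_zero, ?_⟩
    have : ∀ X Y : MM, X = Y := by
      intro X Y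
      calc X = X * 1 := by rw [mul_one]
        _ = Y * 1 := by rw [h5, mul_zero, mul_zero]
        _ = Y := by rw [mul_one]
    exact this _ _
  · refine ⟨c, b⁻¹, inv_ne_zero hb0, ?_⟩
    have h6 : (b⁻¹ • (h : MM)) = ((c * g * c⁻¹ : GG) : MM) := by
      rw [h1, smul_smul, inv_mul_cancel₀ hb0, one_smul]
    rw [h6]
    have h7 : (c * g * c⁻¹ * c : GG) = c * g := by group
    have h8 := congrArg (fun y : GG => (y : MM)) h7
    simp only [Units.val_mul] at h8 ⊢
    exact h8.symm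

theorem charpoly_eq_of_semiconj {A B : MM} (c : GG) (h : (c : MM) * A = B * c) : A.charpoly = B.charpoly := by
  have h1 : ((c⁻¹ : GG) : MM) * (c : MM) = 1 := by rw [← Units.val_mul, inv_mul_cancel, Units.val_one]
  have h2 : (c : MM) * ((c⁻¹ : GG) : MM) = 1 := by rw [← Units.val_mul, mul_inv_cancel, Units.val_one]
  have h3 : A = ((c⁻¹ : GG) : MM) * (B * c) := by rw [← h, ← Matrix.mul_assoc, h1, Matrix.one_mul]
  rw [h3, Matrix.charpoly_mul_comm, Matrix.mul_assoc, h2, Matrix.mul_one]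

theorem smul_one_inj (hn : 0 < n) {x y : F} (h : (x • (1 : MM)) = y • 1) : x = y := by
  have := congrFun (congrFun h ⟨0, hn⟩) ⟨0, hn⟩
  simpa using this

theorem sq_eq_of_semiconj {A B : MM} (c : GG) {x y : F} (hn : 0 < n) (h : (c : MM) * A = B * c)
    (hA : A ^ 2 = x • 1) (hB : B ^ 2 = y • 1) : x = y := by
  have h1 : (c : MM) * A ^ 2 = B ^ 2 * c := by
    rw [pow_two, pow_two, ← Matrix.mul_assoc, h, Matrix.mul_assoc, h, Matrix.mul_assoc]
  rw [hA, hB, mul_smul_comm, smul_mul_assoc, mul_one, one_mul] at h1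
  have h2 : (c : MM) * ((c⁻¹ : GG) : MM) = 1 := by rw [← Units.val_mul, mul_inv_cancel, Units.val_one]
  have h3 := congrArg (fun y : MM => y * ((c⁻¹ : GG) : MM)) h1
  simp only [smul_mul_assoc, h2] at h3
  exact smul_one_inj hn h3

/-- The sign diagonal: the first `i` entries are `-1`. -/
def Dm (F : Type*) [Field F] (n i : ℕ) : Matrix (Fin n) (Fin n) F :=
  diagonal (fun j => if (j : ℕ) < i then -1 else 1)

theorem Dm_mul (i : ℕ) : (Dm F n i : MM) * Dm F n i = 1 := by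
  rw [Dm, diagonal_mul_diagonal, ← diagonal_one]
  congr 1
  ext j
  split_ifs <;> simp

/-- The sign diagonal in `GL`. -/
def DG (F : Type*) [Field F] (n i : ℕ) : GL (Fin n) F := ⟨Dm F n i, Dm F n i, Dm_mul i, Dm_mul i⟩

theorem DG_val (i : ℕ) : ((DG F n i : GG) : MM) = Dm F n i := rfl

theorem Dm_sq (i : ℕ) : (Dm F n i : MM) ^ 2 = (1 : F) • 1 := by
  rw [pow_two, Dm_mul, one_smul]

theorem smul_Dm_sq (a : F) (i : ℕ) : (a • Dm F n i : MM) ^ 2 = (a ^ 2) • 1 := by
  rw [_root_.smul_pow, Dm_sq, one_smul]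

theorem charpoly_smul_Dm (s : F) (i : ℕ) (hi : i ≤ n) :
    (s • Dm F n i : MM).charpoly = (X - C s) ^ (n - i) * (X - C (-s)) ^ i := by
  have h1 : (s • Dm F n i : MM) = diagonal (fun j : Fin n => if (j : ℕ) < i then -s else s) := by
    ext a b
    by_cases hab : a = b
    · subst hab
      by_cases h : (a : ℕ) < i <;> simp [Dm, diagonal_apply, h]
    · simp [Dm, diagonal_apply, hab]
  rw [h1, charpoly_diagonal]
  rw [Fin.prod_univ_eq_prod_range (fun j => (X - C (if j < i then -s else s) : F[X])) n]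
  obtain ⟨k, rfl⟩ := Nat.exists_eq_add_of_le hi
  rw [Finset.prod_range_add]
  have h3 : ∏ x ∈ Finset.range i, (X - C (if x < i then -s else s) : F[X]) = (X - C (-s)) ^ i := by
    rw [Finset.prod_congr rfl (g := fun _ => (X - C (-s) : F[X]))]
    · simp
    · intro x hx
      simp [Finset.mem_range.1 hx]
  have h4 : ∏ x ∈ Finset.range k, (X - C (if i + x < i then -s else s) : F[X]) = (X - C s) ^ k := by
    rw [Finset.prod_congr rfl (g := fun _ => (X - C s : F[X]))]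
    · simp
    · intro x hx
      simp
  rw [h3, h4, Nat.add_sub_cancel_left, mul_comm]

theorem mult_aux {s t : F} (hst : s ≠ t) (x y : ℕ) : rootMultiplicity t ((X - C s) ^ x * (X - C t) ^ y) = y := by
  have h0 : (X - C s : F[X]) ^ x * (X - C t) ^ y ≠ 0 :=
    mul_ne_zero (pow_ne_zero _ (X_sub_C_ne_zero _)) (pow_ne_zero _ (X_sub_C_ne_zero _))
  rw [rootMultiplicity_mul h0, rootMultiplicity_X_sub_C_pow, rootMultiplicity_eq_zero, zero_add]
  simp only [IsRoot, eval_pow, eval_sub, eval_X, eval_C]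
  exact pow_ne_zero _ (sub_ne_zero.2 hst.symm)

/-- `s` times the sign diagonal as an element of `GL`. -/
def sDG (F : Type*) [Field F] (n : ℕ) (s : F) (hs : s ≠ 0) (i : ℕ) : GL (Fin n) F := scG s hs * DG F n i

theorem sDG_val (s : F) (hs : s ≠ 0) (i : ℕ) : ((sDG F n s hs i : GG) : MM) = s • Dm F n i := by
  show (s • (1 : MM)) * Dm F n i = _
  rw [smul_mul_assoc, one_mul]

theorem classify_one (h2 : (2 : F) ≠ 0) (g : GG) (hg : (g : MM) ^ 2 = 1) (hns : ¬∃ a : F, (g : MM) = a • 1) :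
    ∃ i, 1 ≤ i ∧ i ≤ n / 2 ∧ cl g = cl (DG F n i) := by
  have h10 : (1 : F) ≠ -1 := by
    intro h
    apply h2
    linear_combination h
  have hmon : (g : MM).charpoly.Monic := charpoly_monic _
  have hdeg : (g : MM).charpoly.natDegree = n := by simpa using charpoly_natDegree_eq_dim (g : MM)
  have haev : aeval (g : MM) ((X - C (1 : F)) * (X - C (-1)) : F[X]) = 0 := by
    have h3 : ((X - C (1 : F)) * (X - C (-1)) : F[X]) = X ^ 2 - 1 := by
      simp only [map_one, map_neg]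
      ring
    rw [h3, map_sub, map_pow, aeval_X, map_one, hg, sub_self]
  obtain ⟨x, y, hχ⟩ := shape (monic_X_sub_C (1 : F)) (monic_X_sub_C (-1 : F)) (irreducible_X_sub_C _)
    (irreducible_X_sub_C _) n _ hdeg hmon (fun π hπ hd => hπ.prime.dvd_or_dvd (dvd_of_aeval_eq_zero _ haev hπ hd))
  have hxy : x + y = n := by
    rw [hχ, natDegree_mul (pow_ne_zero _ (X_sub_C_ne_zero _)) (pow_ne_zero _ (X_sub_C_ne_zero _)),
      natDegree_pow, natDegree_pow, natDegree_X_sub_C, natDegree_X_sub_C] at hdeg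
    omega
  have hss : ∀ (s : F) (hs : s ^ 2 = 1) (hs0 : s ≠ 0) (i : ℕ), i ≤ n →
      (g : MM).charpoly = (s • Dm F n i : MM).charpoly →
      ∃ c : GG, (c : MM) * g = (s • Dm F n i) * c := by
    intro s hs hs0 i hi hc
    have h3 : ((sDG F n s hs0 i : GG) : MM) ^ 2 = (1 : F) • 1 := by
      rw [sDG_val, smul_Dm_sq, hs]
    have h4 := conj_of_same g (sDG F n s hs0 i)
      (semisimple_of_sq h2 one_ne_zero (by rw [hg, one_smul]))
      (semisimple_of_sq h2 one_ne_zero h3) (by rw [sDG_val]; exact hc)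
    simpa only [sDG_val] using h4
  have hzero : ∀ (s : F) (c : GG), (c : MM) * g = (s • Dm F n 0) * c → False := by
    intro s c hc
    apply hns
    refine ⟨s, ?_⟩
    have hD : (Dm F n 0 : MM) = 1 := by
      simp [Dm]
    rw [hD, smul_mul_assoc, one_mul] at hc
    have h1 : ((c⁻¹ : GG) : MM) * (c : MM) = 1 := by rw [← Units.val_mul, inv_mul_cancel, Units.val_one]
    have h3 := congrArg (fun y : MM => ((c⁻¹ : GG) : MM) * y) hc
    simp only [← Matrix.mul_assoc, h1, Matrix.one_mul, mul_smul_comm] at h3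
    exact h3
  by_cases hy : y ≤ n / 2
  · obtain ⟨c, hc⟩ := hss 1 (one_pow _) one_ne_zero y (by omega) (by
      rw [charpoly_smul_Dm _ _ (by omega), hχ]
      congr 2
      omega)
    refine ⟨y, ?_, hy, cl_eq_of one_ne_zero (by rw [hc, DG_val])⟩
    by_contra hlt
    have : y = 0 := by omega
    subst this
    exact hzero _ c hc
  · have hx : x ≤ n / 2 := by omega
    obtain ⟨c, hc⟩ := hss (-1) (by ring) (neg_ne_zero.2 one_ne_zero) x (by omega) (by
      rw [charpoly_smul_Dm _ _ (by omega), hχ, neg_neg, mul_comm]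
      congr 2
      omega)
    refine ⟨x, ?_, hx, cl_eq_of (neg_ne_zero.2 one_ne_zero) (by rw [hc, DG_val])⟩
    by_contra hlt
    have : x = 0 := by omega
    subst this
    exact hzero _ c hc

theorem charpoly_nonsq (hn : 2 ≤ n) {A : MM} {μ : F} (hμ : ∀ b : F, b ^ 2 ≠ μ) (hA : A ^ 2 = μ • 1) :
    ∃ k, n = 2 * k ∧ A.charpoly = (X ^ 2 - C μ) ^ k := by
  have hmon : A.charpoly.Monic := charpoly_monic _
  have hdeg : A.charpoly.natDegree = n := by simpa using charpoly_natDegree_eq_dim A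
  have hirr : Irreducible (X ^ 2 - C μ : F[X]) := X_pow_sub_C_irreducible_of_prime Nat.prime_two hμ
  have hm : (X ^ 2 - C μ : F[X]).Monic := monic_X_pow_sub_C _ (by norm_num)
  have haev : aeval A (X ^ 2 - C μ : F[X]) = 0 := by
    rw [map_sub, map_pow, aeval_X, aeval_C, hA, Algebra.algebraMap_eq_smul_one, sub_self]
  obtain ⟨a, b, hχ⟩ := shape hm hm hirr hirr n _ hdeg hmon (fun π hπ hd => Or.inl (dvd_of_aeval_eq_zero _ haev hπ hd))
  rw [← pow_add] at hχ
  refine ⟨a + b, ?_, hχ⟩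
  rw [hχ, natDegree_pow, natDegree_X_pow_sub_C] at hdeg
  omega

theorem conj_nonsq (h2 : (2 : F) ≠ 0) (hn : 2 ≤ n) {g T : GG} {μ : F} (hμ : ∀ b : F, b ^ 2 ≠ μ) (hμ0 : μ ≠ 0)
    (hg : (g : MM) ^ 2 = μ • 1) (hT : (T : MM) ^ 2 = μ • 1) : cl g = cl T := by
  obtain ⟨k, hk, hχ⟩ := charpoly_nonsq hn hμ hg
  obtain ⟨k', hk', hχ'⟩ := charpoly_nonsq hn hμ hT
  have hkk : k = k' := by omega
  subst hkk
  obtain ⟨c, hc⟩ := conj_of_same g T (semisimple_of_sq h2 hμ0 hg) (semisimple_of_sq h2 hμ0 hT) (by rw [hχ, hχ'])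
  exact cl_eq_of one_ne_zero (by rw [hc, one_smul])

theorem exists_T {μ : F} (hμ0 : μ ≠ 0) {m : ℕ} (hm : n = m + m) : ∃ T : GG, (T : MM) ^ 2 = μ • 1 := by
  subst hm
  let e : Fin m ⊕ Fin m ≃ Fin (m + m) := finSumFinEquiv
  let R : Matrix (Fin m ⊕ Fin m) (Fin m ⊕ Fin m) F := fromBlocks 0 1 (μ • 1) 0
  have hR : R * R = μ • 1 := by
    simp only [R, fromBlocks_multiply]
    rw [← fromBlocks_one, fromBlocks_smul]
    simp
  let A := Matrix.reindexAlgEquiv F F e R
  have hA : A * A = μ • 1 := by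
    simp only [A]
    rw [← map_mul, hR, map_smul, map_one]
  refine ⟨⟨A, μ⁻¹ • A, ?_, ?_⟩, ?_⟩
  · rw [mul_smul_comm, hA, smul_smul, inv_mul_cancel₀ hμ0, one_smul]
  · rw [smul_mul_assoc, hA, smul_smul, inv_mul_cancel₀ hμ0, one_smul]
  · show A ^ 2 = _
    rw [pow_two, hA]

theorem orderOf_mk_eq_two (g : GG) :
    orderOf (QuotientGroup.mk g : GG ⧸ Subgroup.center GG) = 2 ↔
      (∃ a : F, (g : MM) ^ 2 = a • 1) ∧ ¬ ∃ a : F, (g : MM) = a • 1 := by
  rw [orderOf_eq_prime_iff, ← QuotientGroup.mk_pow, Ne, QuotientGroup.eq_one_iff, QuotientGroup.eq_one_iff,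
    mem_center', mem_center', Units.val_pow_eq_pow_val]

theorem sq_eq_one_iff_of_ne_zero_aux {a : F} (h : a ^ 2 = 1) : a = 1 ∨ a = -1 := by
  have h3 : (a - 1) * (a + 1) = 0 := by linear_combination h
  rcases mul_eq_zero.1 h3 with h4 | h4
  · left; linear_combination h4
  · right; linear_combination h4

theorem D_inj (hn : 2 ≤ n) (h2 : (2 : F) ≠ 0) {i j : ℕ} (hi : i ≤ n / 2) (hj : j ≤ n / 2)
    (h : cl (DG F n i) = cl (DG F n j)) : i = j := by
  have h10 : (1 : F) ≠ -1 := by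
    intro h
    apply h2
    linear_combination h
  obtain ⟨c, a, ha, hc⟩ := exists_of_cl_eq h
  rw [DG_val, DG_val] at hc
  have h1 : (1 : F) = a ^ 2 := sq_eq_of_semiconj c (by omega) hc (Dm_sq i) (smul_Dm_sq a j)
  have h3 := charpoly_eq_of_semiconj c hc
  have h4 : (Dm F n i : MM).charpoly = (X - C 1) ^ (n - i) * (X - C (-1)) ^ i := by
    simpa using charpoly_smul_Dm (1 : F) i (by omega)
  rw [h4, charpoly_smul_Dm a j (by omega)] at h3
  have ha' : a = 1 ∨ a = -1 := sq_eq_one_iff_of_ne_zero_aux h1.symm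
  rcases ha' with rfl | rfl
  · have h5 := congrArg (rootMultiplicity (-1 : F)) h3
    rwa [mult_aux h10, mult_aux h10] at h5
  · have h5 := congrArg (rootMultiplicity (-1 : F)) h3
    rw [neg_neg, mul_comm ((X - C (-1 : F)) ^ (n - j)), mult_aux h10, mult_aux h10] at h5
    omega

theorem T_ne_D (hn : 2 ≤ n) {T : GG} {μ : F} (hμ : ∀ b : F, b ^ 2 ≠ μ) (hT : (T : MM) ^ 2 = μ • 1) (i : ℕ) :
    cl T ≠ cl (DG F n i) := by
  intro h
  obtain ⟨c, a, ha, hc⟩ := exists_of_cl_eq h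
  rw [DG_val] at hc
  exact hμ a (sq_eq_of_semiconj c (by omega) hc hT (smul_Dm_sq a i)).symm

theorem D_ns (h2 : (2 : F) ≠ 0) (hn : 2 ≤ n) {i : ℕ} (h1 : 1 ≤ i) (hi : i ≤ n / 2) :
    ¬∃ a : F, (Dm F n i : MM) = a • 1 := by
  have h10 : (1 : F) ≠ -1 := by
    intro h
    apply h2
    linear_combination h
  rintro ⟨a, ha⟩
  have h3 := congrFun (congrFun ha ⟨0, by omega⟩) ⟨0, by omega⟩
  have h4 := congrFun (congrFun ha ⟨n - 1, by omega⟩) ⟨n - 1, by omega⟩
  have h5 : ¬ (n - 1 < i) := by omega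
  have h6 : 0 < i := by omega
  simp only [Dm, diagonal_apply_eq, h5, h6, if_true, if_false, Matrix.smul_apply, one_apply_eq, smul_eq_mul, mul_one] at h3 h4
  exact h10 (h4.trans h3.symm)

theorem T_ns (hn : 2 ≤ n) {T : GG} {μ : F} (hμ : ∀ b : F, b ^ 2 ≠ μ) (hT : (T : MM) ^ 2 = μ • 1) :
    ¬∃ a : F, (T : MM) = a • 1 := by
  rintro ⟨a, ha⟩
  rw [ha, _root_.smul_pow, one_pow] at hT
  exact hμ a (smul_one_inj (by omega) hT)

theorem classify [Fintype F] (h2 : (2 : F) ≠ 0) (hn : 2 ≤ n) {μ : F} (hμ0 : μ ≠ 0) (hμ : ¬IsSquare μ) (g : GG)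
    (hg : ∃ a : F, (g : MM) ^ 2 = a • 1) (hns : ¬∃ a : F, (g : MM) = a • 1) :
    (∃ i, 1 ≤ i ∧ i ≤ n / 2 ∧ cl g = cl (DG F n i)) ∨ (∃ g' : GG, (g' : MM) ^ 2 = μ • 1 ∧ cl g = cl g') := by
  obtain ⟨a, ha⟩ := hg
  have ha0 : a ≠ 0 := by
    rintro rfl
    rw [zero_smul] at ha
    have h3 : ((g⁻¹ * g⁻¹ * (g * g) : GG) : MM) = 0 := by
      rw [Units.val_mul, Units.val_mul g g, ← pow_two ((g : MM)), ha, mul_zero]
    have h4 : (g⁻¹ * g⁻¹ * (g * g) : GG) = 1 := by group
    rw [h4, Units.val_one] at h3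
    have h5 := congrFun (congrFun h3 ⟨0, by omega⟩) ⟨0, by omega⟩
    simp at h5
  obtain ⟨β, hβ0, hβ⟩ := Cfsg.Agent.Lib.RegUnip.square_class ha0 hμ0 hμ
  have hβi := inv_ne_zero hβ0
  have hval : ((scG β⁻¹ hβi * g : GG) : MM) = β⁻¹ • (g : MM) := by
    show (β⁻¹ • (1 : MM)) * g = _
    rw [smul_mul_assoc, one_mul]
  have hcl : cl g = cl (scG β⁻¹ hβi * g) := by
    refine cl_eq_of (c := 1) hβ0 ?_
    rw [hval, Units.val_one, smul_smul, mul_inv_cancel₀ hβ0, one_smul, Matrix.one_mul, Matrix.mul_one]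
  have hns' : ¬∃ a : F, ((scG β⁻¹ hβi * g : GG) : MM) = a • 1 := by
    rintro ⟨b, hb⟩
    apply hns
    refine ⟨β * b, ?_⟩
    rw [hval] at hb
    rw [mul_smul, ← hb, smul_smul, mul_inv_cancel₀ hβ0, one_smul]
  have hsq : ((scG β⁻¹ hβi * g : GG) : MM) ^ 2 = (β⁻¹ ^ 2 * a) • 1 := by
    rw [hval, _root_.smul_pow, ha, smul_smul]
  rcases hβ with rfl | rfl
  · left
    have h3 : (β⁻¹ ^ 2 * β ^ 2) • (1 : MM) = 1 := by
      rw [← mul_pow, inv_mul_cancel₀ hβ0, one_pow, one_smul]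
    rw [h3] at hsq
    obtain ⟨i, hi1, hi2, hi3⟩ := classify_one h2 _ hsq hns'
    exact ⟨i, hi1, hi2, hcl.trans hi3⟩
  · right
    have h3 : (β⁻¹ ^ 2 * (β ^ 2 * μ)) = μ := by
      rw [← mul_assoc, ← mul_pow, inv_mul_cancel₀ hβ0, one_pow, one_mul]
    rw [h3] at hsq
    exact ⟨_, hsq, hcl⟩

theorem count [Fintype F] (hc : ringChar F ≠ 2) (hn : 2 ≤ n) :
    Nat.card {C : ConjClasses (GG ⧸ Subgroup.center GG) //
      ∃ g : GG ⧸ Subgroup.center GG, ConjClasses.mk g = C ∧ orderOf g = 2} =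
      n / 2 + (if Even n then 1 else 0) := by
  have h2 : (2 : F) ≠ 0 := Ring.two_ne_zero hc
  obtain ⟨μ, hμ⟩ := FiniteField.exists_nonsquare hc
  have hμ0 : μ ≠ 0 := by
    rintro rfl
    exact hμ (IsSquare.zero)
  have hμ' : ∀ b : F, b ^ 2 ≠ μ := by
    intro b hb
    exact hμ ⟨b, by rw [← hb, pow_two]⟩
  have hD : ∀ i, 1 ≤ i → i ≤ n / 2 → ∃ g : GG ⧸ Subgroup.center GG, ConjClasses.mk g = cl (DG F n i) ∧ orderOf g = 2 := by
    intro i h1 hi
    refine ⟨QuotientGroup.mk (DG F n i), rfl, (orderOf_mk_eq_two _).2 ⟨⟨1, ?_⟩, ?_⟩⟩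
    · rw [DG_val]; exact Dm_sq i
    · rw [DG_val]; exact D_ns h2 hn h1 hi
  by_cases he : Even n
  · rw [if_pos he]
    obtain ⟨m, hm⟩ := he
    obtain ⟨T, hT⟩ := exists_T (n := n) hμ0 hm
    have hTr : ∃ g : GG ⧸ Subgroup.center GG, ConjClasses.mk g = cl T ∧ orderOf g = 2 := by
      refine ⟨QuotientGroup.mk T, rfl, (orderOf_mk_eq_two _).2 ⟨⟨μ, hT⟩, T_ns hn hμ' hT⟩⟩
    let f : Option (Fin (n / 2)) → {C : ConjClasses (GG ⧸ Subgroup.center GG) //
        ∃ g : GG ⧸ Subgroup.center GG, ConjClasses.mk g = C ∧ orderOf g = 2} := fun o =>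
      match o with
      | none => ⟨cl T, hTr⟩
      | some i => ⟨cl (DG F n (i + 1)), hD _ (by omega) i.2⟩
    have hf : Function.Bijective f := by
      constructor
      · rintro (_ | i) (_ | j) hij
        · rfl
        · exact absurd (congrArg Subtype.val hij) (T_ne_D hn hμ' hT _)
        · exact absurd (congrArg Subtype.val hij).symm (T_ne_D hn hμ' hT _)
        · have h3 := D_inj hn h2 (show (i : ℕ) + 1 ≤ n / 2 from i.2) (show (j : ℕ) + 1 ≤ n / 2 from j.2)
            (congrArg Subtype.val hij)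
          congr 1
          exact Fin.ext (by omega)
      · rintro ⟨C, g, rfl, hg⟩
        obtain ⟨g, rfl⟩ := QuotientGroup.mk_surjective g
        obtain ⟨h3, h4⟩ := (orderOf_mk_eq_two g).1 hg
        rcases classify h2 hn hμ0 hμ g h3 h4 with ⟨i, hi1, hi2, hi3⟩ | ⟨g', hg', hg''⟩
        · refine ⟨some ⟨i - 1, by omega⟩, Subtype.ext ?_⟩
          show cl (DG F n (i - 1 + 1)) = _
          rw [Nat.sub_add_cancel hi1]
          exact hi3.symm
        · refine ⟨none, Subtype.ext ?_⟩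
          show cl T = _
          exact ((hg'').trans (conj_nonsq h2 hn hμ' hμ0 hg' hT)).symm
    rw [← Nat.card_congr (Equiv.ofBijective f hf), Finite.card_option, Nat.card_fin]
  · rw [if_neg he, add_zero]
    let f : Fin (n / 2) → {C : ConjClasses (GG ⧸ Subgroup.center GG) //
        ∃ g : GG ⧸ Subgroup.center GG, ConjClasses.mk g = C ∧ orderOf g = 2} := fun i =>
      ⟨cl (DG F n (i + 1)), hD _ (by omega) i.2⟩
    have hf : Function.Bijective f := by
      constructor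
      · intro i j hij
        have h3 := D_inj hn h2 (show (i : ℕ) + 1 ≤ n / 2 from i.2) (show (j : ℕ) + 1 ≤ n / 2 from j.2)
            (congrArg Subtype.val hij)
        exact Fin.ext (by omega)
      · rintro ⟨C, g, rfl, hg⟩
        obtain ⟨g, rfl⟩ := QuotientGroup.mk_surjective g
        obtain ⟨h3, h4⟩ := (orderOf_mk_eq_two g).1 hg
        rcases classify h2 hn hμ0 hμ g h3 h4 with ⟨i, hi1, hi2, hi3⟩ | ⟨g', hg', hg''⟩
        · refine ⟨⟨i - 1, by omega⟩, Subtype.ext ?_⟩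
          show cl (DG F n (i - 1 + 1)) = _
          rw [Nat.sub_add_cancel hi1]
          exact hi3.symm
        · exfalso
          obtain ⟨k, hk, -⟩ := charpoly_nonsq hn hμ' hg'
          exact he ⟨k, by omega⟩
    rw [← Nat.card_congr (Equiv.ofBijective f hf), Nat.card_fin]

end Main

end Cfsg.Agent.Lib.RegUnip.PGLInvol
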